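import Mathlib
import Cfsg.Agent.PLocal.LX2
import Cfsg.Agent.Leech.Simple

/-! Groups of Monster type in elementwise form. -/

set_option autoImplicit false
set_option linter.unusedSectionVars false
set_option linter.dupNamespace false

namespace Cfsg.Agent.MT

open Cfsg Subgroup LocalEven Fischer PLocal Leech

variable {G : Type*} [Group G] [Finite G] {Q : Subgroup G} {z : G}

theorem es_sq_mul (h : ES Q z) {x y : G} (hx : x ∈ Q) (hy : y ∈ Q) :
    x * y * (x * y) = 1 ↔ ((x * x = 1 ↔ y * y = 1) ↔ Commute x y) := by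
  have hz := h.ne
  have e : x * y * (x * y) = (x * y * x⁻¹) * (x * x) * y := by group
  have zy : z * y = y * z := (h.central y hy).eq
  by_cases hc : Commute x y
  · rw [e, Inv.commute_iff_conj.1 hc]
    rcases h.sq x hx with a | a <;> rcases h.sq y hy with b | b
    · simp [a, b, hc]
    · simp [a, b, hc, hz]
    · rw [a, mul_assoc, zy, ← mul_assoc, b]; simp [hc, hz]
    · rw [a, mul_assoc, zy, ← mul_assoc, b, h.zsq]; simp [hc]
  · rw [e, h.conj_eq hx hy hc]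
    rcases h.sq x hx with a | a <;> rcases h.sq y hy with b | b
    · rw [a, mul_one, mul_assoc, zy, ← mul_assoc, b]; simp [hc, hz]
    · rw [a, mul_one, mul_assoc, zy, ← mul_assoc, b, h.zsq]; simp [hc, hz]
    · rw [a, mul_assoc y z z, h.zsq, mul_one, b]; simp [hc, hz]
    · rw [a, mul_assoc y z z, h.zsq, mul_one, b]; simp [hc, hz]

theorem es_card_cent (h : ES Q z) {x : G} (hx : x ∈ Q) (h1 : x ≠ 1) (h2 : x ≠ z) :
    Nat.card (Q ⊓ centralizer {x} : Subgroup G) * 2 = Nat.card Q := by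
  obtain ⟨y, hy, hxy⟩ := h.exists_not_commute hx h1 h2
  have hi : (Q ⊓ centralizer {x}).relIndex Q = 2 := index_eq_two_iff'.2 ⟨⟨y, hy⟩, fun b => by
    have := h.commute_mul_iff hy b.2 hx
    simp only [mem_subgroupOf, mem_inf, coe_mul, Inv.mem_centralizer_single, b.2, mul_mem hy b.2,
      true_and]
    by_cases hb : Commute (b : G) x
    · exact Or.inr ⟨hb, fun h' => hxy ((this.1 h').2 hb).symm⟩
    · exact Or.inl ⟨this.2 ⟨fun h' => absurd h'.symm hxy, fun h' => absurd h' hb⟩, hb⟩⟩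
  rw [← hi, ← card_subgroupOf (inf_le_left : Q ⊓ centralizer {x} ≤ Q)]
  exact card_mul_index _

theorem mul_z_sq (h : ES Q z) {x : G} (hx : x ∈ Q) : x * z * (x * z) = x * x := by
  rw [mul_assoc, ← mul_assoc z, (h.central x hx).eq, mul_assoc, h.zsq, mul_one]

/-- The data of a group of Monster type. -/
structure MT (z : G) (Q : Subgroup G) (R : leechLattice → G → Prop)
    (φ : centralizer ({z} : Set G) →* Spor.Co1) : Prop where
  ls : LS Q z
  card : Nat.card Q = 2 ^ 25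
  mem : ∀ {v x}, R v x → x ∈ Q
  ex : ∀ v, ∃ x, R v x
  surj : ∀ x ∈ Q, ∃ v, R v x
  add : ∀ {v w x y}, R v x → R w y → R (v + w) (x * y)
  iff : ∀ {v w x y}, R v x → R w y → (Cong v w ↔ y = x ∨ y = x * z)
  cong : ∀ {v w x}, R v x → Cong v w → R w x
  mulz : ∀ {v x}, R v x → R v (x * z)
  φsurj : Function.Surjective φ
  φker : ∀ h, φ h = 1 ↔ (h : G) ∈ Q
  act : ∀ h g, φ h = QuotientGroup.mk g → ∀ {v x}, R v x → R (g • v) (h * x * (h : G)⁻¹)
  nwc : ∃ g : G, g * z * g⁻¹ ∈ Q ∧ g * z * g⁻¹ ≠ z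

/-- The relation attached to an identification. -/
def Rof {z : G} (Q : Subgroup (centralizer ({z} : Set G))) (ψ : leechLattice → Q ⧸ center Q)
    (v : leechLattice) (x : G) : Prop := ∃ q : Q, ((q : centralizer ({z} : Set G)) : G) = x ∧
      ψ v = QuotientGroup.mk q

theorem es_map (h : ES Q z) {Y : Type*} [Group Y] (f : G →* Y) (hf : Function.Injective f) :
    ES (Q.map f) (f z) := by
  refine ⟨mem_map_of_mem f h.mem, fun e => h.ne (hf (by rw [e, map_one])),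
    by rw [← map_mul, h.zsq, map_one], ?_, ?_, ?_, ?_, ?_⟩
  · rintro - ⟨x, hx, rfl⟩; exact (h.central x hx).map f
  · rintro - ⟨x, hx, rfl⟩ - ⟨y, hy, rfl⟩
    exact (h.conj x hx y hy).imp (fun e => by rw [← map_inv, ← map_mul, ← map_mul, e])
      fun e => by rw [← map_inv, ← map_mul, ← map_mul, e, map_mul]
  · rintro - ⟨x, hx, rfl⟩
    exact (h.sq x hx).imp (fun e => by rw [← map_mul, e, map_one]) fun e => by rw [← map_mul, e]
  · rintro - ⟨x, hx, rfl⟩ hc
    exact (h.cent x hx fun y hy => (hc _ (mem_map_of_mem f hy)).of_map hf).imp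
      (fun e => by rw [e, map_one]) fun e => by rw [e]
  · obtain ⟨x, hx, y, hy, e⟩ := h.noncomm
    exact ⟨_, mem_map_of_mem f hx, _, mem_map_of_mem f hy, fun e' => e (e'.of_map hf)⟩

theorem es_subgroupOf (h : ES Q z) {H : Subgroup G} (hH : Q ≤ H) :
    ES (Q.subgroupOf H) ⟨z, hH h.mem⟩ := by
  refine ⟨h.mem, fun e => h.ne (congrArg Subtype.val e), Subtype.ext h.zsq,
    fun x hx => Subtype.ext (h.central x hx), fun x hx y hy => ?_, fun x hx => ?_,
    fun x hx hc => ?_, ?_⟩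
  · exact (h.conj x hx y hy).imp Subtype.ext Subtype.ext
  · exact (h.sq x hx).imp Subtype.ext Subtype.ext
  · exact (h.cent x hx fun y hy => congrArg Subtype.val (hc ⟨y, hH hy⟩ hy)).imp Subtype.ext
      Subtype.ext
  · obtain ⟨x, hx, y, hy, e⟩ := h.noncomm
    exact ⟨⟨x, hH hx⟩, hx, ⟨y, hH hy⟩, hy, fun e' => e (congrArg Subtype.val e')⟩

theorem mem_center_iff' (h : ES Q z) {q : Q} : q ∈ center Q ↔ (q : G) = 1 ∨ (q : G) = z := by
  rw [← mem_zpowers_two h.zsq, ← h.center_eq]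
  exact ⟨fun h' => mem_map_of_mem _ h', fun ⟨q', h1, h2⟩ => by rwa [← Subtype.ext h2]⟩

/-- The common setting in elementwise form. -/
theorem ls_of_setting {z : G} {Q : Subgroup (centralizer ({z} : Set G))} {w : ℕ}
    (hS : IsExtraspecialCentralizerSetting z Q w) :
    LS (Q.map (centralizer ({z} : Set G)).subtype) z ∧
      ES Q ⟨z, Inv.mem_centralizer_single.2 rfl⟩ ∧
      Nat.card (Q.map (centralizer ({z} : Set G)).subtype) = 2 ^ (2 * w + 1) ∧
      ∃ g : G, g * z * g⁻¹ ∈ Q.map (centralizer ({z} : Set G)).subtype ∧ g * z * g⁻¹ ≠ z := by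
  obtain ⟨hz, hF, hE, hc, g, ⟨hq, hq'⟩, hg⟩ := hS
  obtain ⟨c, hc', -⟩ := exists_es hE
  have h1 := es_map hc' _ (subtype_injective _)
  have h2 := (ls_of_genFit hz (by rw [hF]) h1.isExtraspecial).1
  refine ⟨h2, ?_, by rw [card_map_of_injective (subtype_injective _), hc],
    g, mem_map_of_mem _ hq', hg⟩
  rwa [show (⟨z, _⟩ : centralizer ({z} : Set G)) = c from Subtype.ext (h2.toES.unique h1)]

theorem mt_of {z : G} {Q : Subgroup (centralizer ({z} : Set G))} [Q.Normal]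
    (hS : IsExtraspecialCentralizerSetting z Q 12)
    {e : (centralizer ({z} : Set G)) ⧸ Q ≃* Spor.Co1} {ψ : leechLattice → Q ⧸ center Q}
    (hψ : IsLeechModTwoIso Q e ψ) :
    MT z (Q.map (centralizer ({z} : Set G)).subtype) (Rof Q ψ)
      (e.toMonoidHom.comp (QuotientGroup.mk' Q)) := by
  obtain ⟨hL, hE, hc, hn⟩ := ls_of_setting hS
  obtain ⟨h1, h2, h3, h4⟩ := hψ
  have h0 : ψ 0 = 1 := (h3 0).2 ⟨0, by simp⟩
  have hsub : ∀ v w, ψ (v - w) = ψ v * (ψ w)⁻¹ := fun v w => by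
    rw [eq_mul_inv_iff_mul_eq, ← h1, sub_add_cancel]
  have hc' : ∀ v w, Cong v w ↔ ψ v = ψ w := fun v w => by
    rw [← mul_inv_eq_one, ← hsub, h3]
    exact exists_congr fun u => by rw [two_nsmul]
  have hq : ∀ p q : Q, (QuotientGroup.mk p : Q ⧸ center Q) = QuotientGroup.mk q ↔
      ((q : centralizer ({z} : Set G)) : G) = (p : centralizer ({z} : Set G)) ∨
      ((q : centralizer ({z} : Set G)) : G) = (p : centralizer ({z} : Set G)) * z := fun p q => by
    rw [QuotientGroup.eq, mem_center_iff' hE, Subtype.ext_iff, Subtype.ext_iff]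
    simp only [coe_mul, coe_inv, coe_one, inv_mul_eq_iff_eq_mul, mul_one]
  refine ⟨hL, hc, ?_, fun v => ?_, ?_, ?_, ?_, ?_, ?_,
    e.surjective.comp (QuotientGroup.mk'_surjective _), fun h => ?_, ?_, hn⟩
  · rintro v - ⟨q, rfl, -⟩; exact mem_map_of_mem _ q.2
  · obtain ⟨q, hq⟩ := QuotientGroup.mk_surjective (ψ v)
    exact ⟨_, q, rfl, hq.symm⟩
  · rintro - ⟨q, hq, rfl⟩
    obtain ⟨v, hv⟩ := h2 (QuotientGroup.mk ⟨q, hq⟩)
    exact ⟨v, ⟨q, hq⟩, rfl, hv⟩
  · rintro v w - - ⟨p, rfl, hp⟩ ⟨q, rfl, hq⟩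
    exact ⟨p * q, rfl, by rw [h1, hp, hq]; rfl⟩
  · rintro v w - - ⟨p, rfl, hp⟩ ⟨q, rfl, hq'⟩
    rw [hc', hp, hq', hq]
  · rintro v w - ⟨p, rfl, hp⟩ h
    exact ⟨p, rfl, by rw [← (hc' v w).1 h, hp]⟩
  · rintro v - ⟨p, rfl, hp⟩
    exact ⟨p * ⟨_, hE.mem⟩, rfl, by rw [hp, hq]; exact Or.inr rfl⟩
  · rw [MonoidHom.comp_apply, MulEquiv.coe_toMonoidHom, MulEquiv.map_eq_one_iff,
      QuotientGroup.mk'_apply, QuotientGroup.eq_one_iff, LocalEven.mem_map_subtype]
  · rintro h g hg v - ⟨q, rfl, hq⟩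
    exact ⟨_, rfl, h4 h g hg.symm v q hq⟩

/-- `h` centralizes `z` and acts on `Q / ⟨z⟩` as `g`. -/
def PP (φ : centralizer ({z} : Set G) →* Spor.Co1) (h : G) (g : Co0) : Prop :=
  ∃ hh : h ∈ centralizer ({z} : Set G), φ ⟨h, hh⟩ = QuotientGroup.mk g

section
variable {φ : centralizer ({z} : Set G) →* Spor.Co1} {a b : G} {g k : Co0}

theorem PP.mem (h : PP φ a g) : a ∈ centralizer ({z} : Set G) := h.1
theorem PP.comm (h : PP φ a g) : Commute a z := Inv.mem_centralizer_single.1 h.1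
theorem PP.mul (h : PP φ a g) (h' : PP φ b k) : PP φ (a * b) (g * k) :=
  ⟨mul_mem h.1 h'.1, by rw [QuotientGroup.mk_mul, ← h.2, ← h'.2, ← map_mul]; rfl⟩
theorem PP.inv (h : PP φ a g) : PP φ a⁻¹ g⁻¹ :=
  ⟨inv_mem h.1, by rw [QuotientGroup.mk_inv, ← h.2, ← map_inv]; rfl⟩
theorem pp_one : PP φ 1 1 := ⟨one_mem _, map_one φ⟩
theorem PP.pow (h : PP φ a g) (n : ℕ) : PP φ (a ^ n) (g ^ n) := by
  induction n with
  | zero => simpa using pp_one
  | succ n ih => rw [pow_succ, pow_succ]; exact ih.mul h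
theorem PP.conj (h : PP φ a g) (h' : PP φ b k) : PP φ (a * b * a⁻¹) (g * k * g⁻¹) :=
  (h.mul h').mul h.inv
theorem PP.neg (h : PP φ a g) : PP φ a (g * negCo) :=
  ⟨h.1, by rw [h.2, QuotientGroup.mk_mul, (QuotientGroup.eq_one_iff _).2 negCo_central, mul_one]⟩
theorem PP.eq_or (h : PP φ a g) (h' : PP φ a k) : k = g ∨ k = g * negCo := by
  have := QuotientGroup.eq.1 (h.2.symm.trans h'.2)
  rwa [Leech.mem_center_iff, inv_mul_eq_iff_eq_mul, inv_mul_eq_iff_eq_mul, mul_one] at this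
theorem exists_pp (φ : centralizer ({z} : Set G) →* Spor.Co1) (h : Commute a z) :
    ∃ g, PP φ a g := by
  obtain ⟨g, hg⟩ := QuotientGroup.mk_surjective (φ ⟨a, Inv.mem_centralizer_single.2 h⟩)
  exact ⟨g, _, hg.symm⟩
end

theorem cong_sub (v w : leechLattice) : Cong (v + w) (v - w) := by
  rw [sub_eq_add_neg]; exact (Cong.refl v).add (cong_neg w)

theorem exists_short' (v : leechLattice) : ∃ y : leechLattice, sqNorm (y : V) ≤ 64 ∧ Cong v y := by
  obtain ⟨y, hy, h1, h2⟩ := exists_short v.2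
  exact ⟨⟨y, hy⟩, h1, (cong_iff _ _).2 h2⟩

theorem Cong.dvd_iff {v w : leechLattice} (h : Cong v w) :
    (32 : ℤ) ∣ sqNorm (v : V) ↔ (32 : ℤ) ∣ sqNorm (w : V) := by
  obtain ⟨u, hu⟩ := h
  have e : (v : V) = w + (2 : ℤ) • (u : V) := by
    rw [sub_eq_iff_eq_add'] at hu; rw [hu, two_nsmul, two_zsmul]; rfl
  obtain ⟨a, ha⟩ := eight_dvd_dot w.2 u.2
  obtain ⟨b, hb⟩ := sixteen_dvd u.2
  rw [e, sqNorm_add, sqNorm_smul, dot_smul_right, ha, hb]
  omega

/-- `4 e_i + 4 e_j` -/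
def fv (i j : GolayPt) : leechLattice := ⟨fourVec i j, fourVec_mem i j⟩
/-- `4 e_i - 4 e_j` -/
def fv' (i j : GolayPt) : leechLattice := ⟨fourVec' i j, fourVec'_mem i j⟩
/-- twice a code word -/
def tw (c : Finset GolayPt) (hc : Cw c) : leechLattice := ⟨twoInd (ind c), twoInd_mem hc⟩

theorem tw_apply (c : Finset GolayPt) (hc : Cw c) (i : GolayPt) :
    (tw c hc : V) i = if i ∈ c then 2 else 0 := by
  change 2 * ((ind c i).val : ℤ) = _
  rw [ind_apply]; split_ifs <;> rfl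

theorem tw_norm (c : Finset GolayPt) (hc : Cw c) : sqNorm (tw c hc : V) = 4 * c.card := by
  rw [sqNorm_def]
  simp [tw_apply, Finset.sum_ite_mem, mul_comm]

theorem exists_octad : ∃ c, Cw c ∧ c.card = 8 := by
  obtain ⟨c, hc⟩ := Finset.card_pos.1 (card_cw8 ▸ by norm_num :
    0 < (cwSet.filter fun c => c.card = 8).card)
  rw [Finset.mem_filter, mem_cwSet] at hc
  exact ⟨c, hc⟩

theorem fv_add (i j : GolayPt) : fv i j + fv' i j = e8 i := by
  apply Subtype.ext; funext k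
  simp only [fv, fv', fourVec, fourVec', AddSubgroup.coe_add, Pi.add_apply, Pi.sub_apply,
    Pi.single_apply, e8_apply]
  split_ifs <;> rfl

namespace MT

variable {R : leechLattice → G → Prop} {φ : centralizer ({z} : Set G) →* Spor.Co1}
  (h : MT z Q R φ) {v w : leechLattice} {x y a : G} {g : Co0}
include h

theorem es : ES Q z := h.ls.toES

theorem act' (ha : PP φ a g) (hx : R v x) : R (g • v) (a * x * a⁻¹) := h.act ⟨a, ha.1⟩ g ha.2 hx

theorem exists_lift (g : Co0) : ∃ a, PP φ a g := by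
  obtain ⟨a, ha⟩ := h.φsurj (QuotientGroup.mk g)
  exact ⟨a, a.2, ha⟩

theorem pp_iff (ha : PP φ a g) : a ∈ Q ↔ g = 1 ∨ g = negCo := by
  rw [← h.φker ⟨a, ha.1⟩, ha.2, QuotientGroup.eq_one_iff, Leech.mem_center_iff]

theorem pp_Q (ha : a ∈ Q) : PP φ a 1 :=
  ⟨Inv.mem_centralizer_single.2 (h.es.central a ha).symm, (h.φker _).2 ha⟩

theorem r_one : R 0 1 := by
  obtain ⟨v, hv⟩ := h.surj 1 (one_mem Q)
  refine h.cong hv ?_
  obtain ⟨u, hu⟩ := (h.iff (h.add hv hv) hv).2 (Or.inl (mul_one 1).symm)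
  exact ⟨u, by rw [← hu]; abel⟩

theorem cong_zero (hx : R v x) : Cong 0 v ↔ x = 1 ∨ x = z := by
  rw [h.iff h.r_one hx, one_mul]

theorem ne_of_short (hx : R v x) (h0 : v ≠ 0) (hn : sqNorm (v : V) ≤ 64) : x ≠ 1 ∧ x ≠ z := by
  rw [← not_or, ← h.cong_zero hx]
  intro hc
  rcases hc.short (by simp [sqNorm_zero]) hn with e | e | e
  · exact h0 e.symm
  · exact h0 (neg_eq_zero.1 e.symm)
  · simp [sqNorm_zero] at e

theorem conj_of_norm (hx : R v x) (hy : R w y) (h0 : v ≠ 0) (hn : sqNorm (v : V) ≤ 64)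
    (e : sqNorm (v : V) = sqNorm (w : V)) : ∃ a g, PP φ a g ∧ g • v = w ∧ a * x * a⁻¹ = y := by
  obtain ⟨g, rfl⟩ := trans_norm v w hn e
  obtain ⟨a, ha⟩ := h.exists_lift g
  obtain ⟨h1, h2⟩ := h.ne_of_short hx h0 hn
  rcases (h.iff (h.act' ha hx) hy).1 (Cong.refl _) with e1 | e1
  · exact ⟨a, g, ha, rfl, e1.symm⟩
  · obtain ⟨q, hq, hq'⟩ := h.es.exists_conj (h.mem hx) h1 h2
    refine ⟨a * q, g, by simpa using ha.mul (h.pp_Q hq), rfl, ?_⟩
    rw [e1, show a * q * x * (a * q)⁻¹ = a * (q * x * q⁻¹) * a⁻¹ by group, hq',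
      mul_assoc (a * x), ha.comm.inv_left.eq]
    group

theorem sq_congr (hx : R v x) (hy : R w y) (hn : sqNorm (v : V) ≤ 64)
    (e : sqNorm (v : V) = sqNorm (w : V)) (h0 : 0 < sqNorm (v : V)) : x * x = 1 ↔ y * y = 1 := by
  obtain ⟨a, -, -, -, rfl⟩ := h.conj_of_norm hx hy (by rintro rfl; simp [sqNorm_zero] at h0) hn e
  rw [show a * x * a⁻¹ * (a * x * a⁻¹) = a * (x * x) * a⁻¹ by group, conj_eq_one_iff]

theorem sq64 (hx : R v x) (hn : sqNorm (v : V) = 64) : x * x = 1 := by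
  obtain ⟨x₁, h1⟩ := h.ex (fv none (some 0))
  obtain ⟨x₂, h2⟩ := h.ex (fv (some 0) (some 1))
  obtain ⟨x₃, h3⟩ := h.ex (fv none (some 2))
  have k : ∀ {u : leechLattice} {y : G}, R u y → sqNorm (u : V) = 32 →
      (y * y = 1 ↔ x₁ * x₁ = 1) := fun hu e =>
    h.sq_congr hu h1 (by omega) (by rw [e]; decide +kernel) (by omega)
  have e2 := k h2 (by decide +kernel)
  have e3 := k h3 (by decide +kernel)
  have e12 := k (h.cong (h.add h1 h2) (cong_sub _ _)) (by decide +kernel)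
  have e13 := k (h.cong (h.add h1 h3) (cong_sub _ _)) (by decide +kernel)
  have e23 := h.sq_congr hx (h.add h2 h3) hn.le (by rw [hn]; decide +kernel) (by omega)
  have e123 := k (h.cong (h.add h1 (h.add h2 h3)) (cong_sub _ _)) (by decide +kernel)
  rw [es_sq_mul h.es (h.mem h1) (h.mem h2)] at e12
  rw [es_sq_mul h.es (h.mem h1) (h.mem h3)] at e13
  rw [es_sq_mul h.es (h.mem h1) (mul_mem (h.mem h2) (h.mem h3)), ← e23, Commute.symm_iff,
    h.es.commute_mul_iff (h.mem h2) (h.mem h3) (h.mem h1), Commute.symm_iff (a := x₂),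
    Commute.symm_iff (a := x₃)] at e123
  tauto

theorem sq32 (hx : R v x) (hn : sqNorm (v : V) = 32) : x * x = 1 := by
  obtain ⟨c, hc, h8⟩ := exists_octad
  obtain ⟨i, hi⟩ := Finset.card_pos.1 (by omega : 0 < c.card)
  obtain ⟨j, k, -, hj, hk, -, hjk, -⟩ := exists_three_notin c (by omega)
  have n1 : sqNorm (tw c hc : V) = 32 := by rw [tw_norm, h8]; rfl
  obtain ⟨x₁, h1⟩ := h.ex (tw c hc)
  obtain ⟨x₂, h2⟩ := h.ex (fv j k)
  obtain ⟨x₃, h3⟩ := h.ex (fv' j k)
  have e1 := h.sq_congr hx h1 (by omega) (by rw [hn, n1]) (by omega)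
  have e2 := h.sq_congr hx h2 (by omega) (by rw [hn]; exact (fourVec_norm hjk).symm) (by omega)
  have e3 := h.sq_congr hx h3 (by omega) (by rw [hn]; exact (fourVec'_norm hjk).symm) (by omega)
  have e12 := h.sq64 (h.add h1 h2) (by
    rw [AddSubgroup.coe_add, sqNorm_add, n1, show sqNorm (fv j k : V) = 32 from fourVec_norm hjk]
    change 32 + 2 * dotInt _ (fourVec j k) + 32 = _
    rw [fourVec, dot_add_right, dot_single_right, dot_single_right, tw_apply, tw_apply]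
    simp [hj, hk])
  have e13 := h.sq64 (h.add h1 h3) (by
    rw [AddSubgroup.coe_add, sqNorm_add, n1, show sqNorm (fv' j k : V) = 32 from fourVec'_norm hjk]
    change 32 + 2 * dotInt _ (fourVec' j k) + 32 = _
    rw [fourVec', dot_sub_right, dot_single_right, dot_single_right, tw_apply, tw_apply]
    simp [hj, hk])
  have h4 : R (e8 i) (x₂ * x₃) := h.cong (fv_add j k ▸ h.add h2 h3) (cong_e8 j i)
  have e23 := h.sq64 h4 (e8_norm i)
  have e123 := h.sq64 (h.cong (h.add h1 h4) (cong_sub _ _)) (by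
    rw [AddSubgroup.coe_sub, sqNorm_sub, n1, e8_norm, dot_e8, tw_apply]; simp [hi])
  rw [es_sq_mul h.es (h.mem h1) (h.mem h2)] at e12
  rw [es_sq_mul h.es (h.mem h1) (h.mem h3)] at e13
  rw [es_sq_mul h.es (h.mem h1) (mul_mem (h.mem h2) (h.mem h3)), Commute.symm_iff,
    h.es.commute_mul_iff (h.mem h2) (h.mem h3) (h.mem h1), Commute.symm_iff (a := x₂),
    Commute.symm_iff (a := x₃)] at e123
  tauto

theorem sq0 (hx : R 0 x) : x * x = 1 := by
  rcases (h.cong_zero hx).1 (Cong.refl 0) with e | e <;> rw [e]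
  exacts [mul_one 1, h.es.zsq]

theorem sq48 (hx : R v x) (hn : sqNorm (v : V) = 48) : x * x ≠ 1 := by
  intro hs
  have key : ∀ y ∈ Q, y * y = 1 := fun y hy => by
    obtain ⟨w, hw⟩ := h.surj y hy
    obtain ⟨u, hu, hc⟩ := exists_short' w
    have := h.cong hw hc
    rcases norm_cases u.2 hu with e | e | e | e
    · exact h.sq0 (by rwa [show u = 0 from Subtype.ext e] at this)
    · exact h.sq32 this e
    · exact (h.sq_congr hx this (by omega) (by rw [hn, e]) (by omega)).1 hs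
    · exact h.sq64 this e
  obtain ⟨a, ha, b, hb, e⟩ := h.es.noncomm
  exact e (((es_sq_mul h.es ha hb).1 (key _ (mul_mem ha hb))).1 (by rw [key a ha, key b hb]))

theorem sq_iff (hx : R v x) : x * x = 1 ↔ (32 : ℤ) ∣ sqNorm (v : V) := by
  obtain ⟨u, hu, hc⟩ := exists_short' v
  have := h.cong hx hc
  rw [Cong.dvd_iff hc]
  rcases norm_cases u.2 hu with e | e | e | e
  · rw [e, sqNorm_zero]
    exact iff_of_true (h.sq0 (by rwa [show u = 0 from Subtype.ext e] at this)) (dvd_zero _)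
  · exact iff_of_true (h.sq32 this e) (by rw [e])
  · exact iff_of_false (h.sq48 this e) (by rw [e]; decide)
  · exact iff_of_true (h.sq64 this e) (by rw [e]; decide)

theorem comm_iff (hx : R v x) (hy : R w y) : Commute x y ↔ (16 : ℤ) ∣ dotInt (v : V) (w : V) := by
  have e := h.sq_iff (h.add hx hy)
  rw [es_sq_mul h.es (h.mem hx) (h.mem hy), h.sq_iff hx, h.sq_iff hy, AddSubgroup.coe_add,
    sqNorm_add] at e
  obtain ⟨a, ha⟩ := eight_dvd_dot v.2 w.2
  obtain ⟨b, hb⟩ := sixteen_dvd v.2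
  obtain ⟨c, hc⟩ := sixteen_dvd w.2
  rw [ha, hb, hc] at e
  rw [ha]
  by_cases h1 : (32 : ℤ) ∣ 16 * b <;> by_cases h2 : (32 : ℤ) ∣ 16 * c <;>
    simp only [h1, h2, iff_true, true_iff, iff_false, false_iff, not_true, not_false_iff] at e <;>
    [rw [e]; rw [← not_iff_not, e]; rw [← not_iff_not, e]; rw [e]] <;> omega

/-- An involution of `Q` other than `z` belongs to a vector of norm `32` or `64`. -/
theorem invol_cases (hx : x ∈ Q) (h2 : x * x = 1) (h1 : x ≠ 1) (hz : x ≠ z) :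
    ∃ v, R v x ∧ (sqNorm (v : V) = 32 ∨ sqNorm (v : V) = 64) := by
  obtain ⟨w, hw⟩ := h.surj x hx
  obtain ⟨u, hu, hc⟩ := exists_short' w
  have := h.cong hw hc
  refine ⟨u, this, ?_⟩
  rcases norm_cases u.2 hu with e | e | e | e
  · rw [show u = 0 from Subtype.ext e] at this
    exact ((h.cong_zero this).1 (Cong.refl 0)).elim (absurd · h1) (absurd · hz)
  · exact Or.inl e
  · exact absurd h2 (h.sq48 this e)
  · exact Or.inr e

end MT

end Cfsg.Agent.MT
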