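import Mathlib
import Cfsg.Agent.Leech.Simple
import Cfsg.Agent.S5393

/-! The structure `2 ^ 12 : M24` of the monomial group. -/

set_option autoImplicit false

namespace Cfsg.Agent.MT

open Cfsg Subgroup Leech

theorem sign_mul {c d : Finset GolayPt} (hc : Cw c) (hd : Cw d) :
    signCo c hc * signCo d hd = signCo (symmDiff c d) (hc.symmDiff hd) := co0_ext fun v => by
  apply Subtype.ext; funext i
  rw [mul_smul, signCo_apply, signCo_apply, signCo_apply]
  by_cases h1 : i ∈ c <;> by_cases h2 : i ∈ d <;> simp [Finset.mem_symmDiff, h1, h2]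

theorem sign_empty : signCo ∅ cw_empty = 1 := co0_ext fun v => by
  apply Subtype.ext; funext i; rw [signCo_apply]; simp

theorem sign_univ : signCo Finset.univ cw_univ = negCo := co0_ext fun v => by
  apply Subtype.ext; funext i; rw [signCo_apply, negCo_smul]; simp

theorem sign_sq {c : Finset GolayPt} (hc : Cw c) : signCo c hc * signCo c hc = 1 := by
  rw [sign_mul, ← sign_empty]; congr 1; exact symmDiff_self c

theorem perm_sign (σ : M24) {c : Finset GolayPt} (hc : Cw c) :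
    permHom σ * signCo c hc * (permHom σ)⁻¹ =
      signCo (c.map (σ : Equiv.Perm GolayPt).toEmbedding) (hc.map σ.2) := by
  rw [mul_inv_eq_iff_eq_mul]
  refine co0_ext fun v => ?_
  apply Subtype.ext; funext i
  change ((permCo σ • signCo c hc • v : leechLattice) : V) i =
    ((signCo _ (hc.map σ.2) • permCo σ • v : leechLattice) : V) i
  rw [permCo_apply, signCo_apply, signCo_apply, permCo_apply]
  simp [Finset.mem_map_equiv]

/-- The sign changes. -/
def Sg : Subgroup Co0 where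
  carrier := {g | ∃ c hc, g = signCo c hc}
  one_mem' := ⟨_, _, sign_empty.symm⟩
  mul_mem' := by rintro - - ⟨c, hc, rfl⟩ ⟨d, hd, rfl⟩; exact ⟨_, _, sign_mul hc hd⟩
  inv_mem' := by rintro - ⟨c, hc, rfl⟩; exact ⟨c, hc, inv_eq_of_mul_eq_one_right (sign_sq hc)⟩

theorem sign_mem_Sg {c : Finset GolayPt} (hc : Cw c) : signCo c hc ∈ Sg := ⟨c, hc, rfl⟩
theorem neg_mem_Sg : negCo ∈ Sg := ⟨_, _, sign_univ.symm⟩

theorem Sg_sq {g : Co0} (hg : g ∈ Sg) : g * g = 1 := by
  obtain ⟨c, hc, rfl⟩ := hg; exact sign_sq hc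

theorem Sg_comm {g k : Co0} (hg : g ∈ Sg) (hk : k ∈ Sg) : Commute g k := by
  have := Sg_sq (mul_mem hg hk)
  rw [Commute, SemiconjBy, ← inv_eq_of_mul_eq_one_right this, mul_inv_rev,
    inv_eq_of_mul_eq_one_right (Sg_sq hg), inv_eq_of_mul_eq_one_right (Sg_sq hk)]

theorem Sg_le : Sg ≤ Nm := by rintro - ⟨c, hc, rfl⟩; exact signCo_mem c hc

theorem perm_Sg (σ : M24) {g : Co0} (hg : g ∈ Sg) : permHom σ * g * (permHom σ)⁻¹ ∈ Sg := by
  obtain ⟨c, hc, rfl⟩ := hg; exact ⟨_, _, perm_sign σ hc⟩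

theorem exists_dec {g : Co0} (hg : g ∈ Nm) : ∃ σ : M24, ∃ s ∈ Sg, g = s * permHom σ := by
  obtain ⟨σ, c, hc, rfl⟩ := exists_mono hg
  exact ⟨σ, _, sign_mem_Sg hc, mono_eq_mul σ c hc⟩

theorem dec_inj {σ τ : M24} {s t : Co0} (hs : s ∈ Sg) (ht : t ∈ Sg)
    (e : s * permHom σ = t * permHom τ) : σ = τ := by
  obtain ⟨c, hc, rfl⟩ := hs
  obtain ⟨d, hd, rfl⟩ := ht
  exact (mono_inj ((mono_eq_mul σ c hc).trans (e.trans (mono_eq_mul τ d hd).symm))).1

theorem sign_inj {c d : Finset GolayPt} {hc : Cw c} {hd : Cw d} (e : signCo c hc = signCo d hd) :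
    c = d := (mono_inj (σ := 1) (σ' := 1) e).2

theorem card_Sg : Nat.card Sg = 4096 := by
  rw [← card_cw]
  exact (Nat.card_eq_of_bijective (fun c : {c : Finset GolayPt // Cw c} =>
    (⟨_, sign_mem_Sg c.2⟩ : Sg)) ⟨fun c d e => Subtype.ext
      (sign_inj (hc := c.2) (hd := d.2) (congrArg Subtype.val e)),
    fun ⟨_, c, hc, e⟩ => ⟨⟨c, hc⟩, Subtype.ext e.symm⟩⟩).symm

theorem Sg_normIn : NormIn Sg Nm := ⟨Sg_le, fun g hg n hn => by
  obtain ⟨σ, s, hs, rfl⟩ := exists_dec hg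
  have := mul_mem (mul_mem hs (perm_Sg σ hn)) (inv_mem hs)
  convert this using 1; group⟩

/-- The permutation part of a monomial transformation. -/
noncomputable def piM : Nm →* M24 := MonoidHom.mk' (fun g => (exists_dec g.2).choose) fun a b => by
  obtain ⟨s, hs, e1⟩ := (exists_dec a.2).choose_spec
  obtain ⟨t, ht, e2⟩ := (exists_dec b.2).choose_spec
  obtain ⟨u, hu, e3⟩ := (exists_dec (a * b).2).choose_spec
  refine dec_inj hu (mul_mem hs (perm_Sg (exists_dec a.2).choose ht)) ?_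
  rw [← e3, map_mul, coe_mul]
  nth_rewrite 1 [e1, e2]
  group

theorem piM_spec (g : Nm) : ∃ s ∈ Sg, (g : Co0) = s * permHom (piM g) :=
  (exists_dec g.2).choose_spec

theorem piM_eq {g : Nm} {s : Co0} (hs : s ∈ Sg) {σ : M24} (e : (g : Co0) = s * permHom σ) :
    piM g = σ := by
  obtain ⟨t, ht, e'⟩ := piM_spec g
  exact dec_inj ht hs (e'.symm.trans e)

theorem piM_perm (σ : M24) : piM ⟨permHom σ, permCo_mem σ⟩ = σ :=
  piM_eq (one_mem _) (one_mul _).symm

theorem piM_eq_one {g : Nm} : piM g = 1 ↔ (g : Co0) ∈ Sg := by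
  refine ⟨fun h => ?_, fun h => piM_eq h (by rw [map_one, mul_one])⟩
  obtain ⟨t, ht, e⟩ := piM_spec g
  rwa [e, h, map_one, mul_one]

theorem perm_mem_Sg {σ : M24} (h : permHom σ ∈ Sg) : σ = 1 := by
  rw [← piM_perm σ]; exact piM_eq_one.2 h

theorem not_two {Y : Type*} [Group Y] [Finite Y] (h : 3 ∣ Nat.card Y) : ¬ IsPGroup 2 Y := fun h' => by
  obtain ⟨n, hn⟩ := IsPGroup.iff_card.1 h'
  rw [hn] at h
  exact absurd (Nat.prime_three.dvd_of_dvd_pow h) (by decide)

theorem nm_two {N : Subgroup Co0} (h : NormIn N Nm) (h2 : IsPGroup 2 N) (hn : negCo ∈ N) :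
    (∀ g ∈ N, g = 1 ∨ g = negCo) ∨ N = Sg := by
  have hs : Function.Surjective piM := fun σ => ⟨_, piM_perm σ⟩
  have h1 : N ≤ Sg := fun g hg => by
    rcases Golay.simple_M24.eq_bot_or_eq_top_of_normal _ (h.normal.map piM hs) with e | e
    · exact (piM_eq_one (g := ⟨g, h.1 hg⟩)).1 (mem_bot.1 (e ▸ mem_map_of_mem piM hg))
    · have := (h2.comap_subtype (K := Nm)).map piM
      refine absurd this (not_two ?_)
      change 3 ∣ Nat.card ((N.subgroupOf Nm).map piM)
      rw [e, card_top, Golay.card_M24]; decide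
  let W : Submodule (ZMod 2) (GolayPt → ZMod 2) :=
    { carrier := {w | ∃ c hc, signCo c hc ∈ N ∧ ind c = w}
      add_mem' := by
        rintro - - ⟨c, hc, h1, rfl⟩ ⟨d, hd, h2, rfl⟩
        exact ⟨_, _, sign_mul hc hd ▸ mul_mem h1 h2, ind_symmDiff c d⟩
      zero_mem' := ⟨_, _, sign_empty ▸ one_mem N, ind_empty⟩
      smul_mem' := by
        rintro a - ⟨c, hc, h1, rfl⟩
        rcases zmod2_cases a with rfl | rfl
        · exact ⟨_, _, sign_empty ▸ one_mem N, by rw [zero_smul, ind_empty]⟩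
        · exact ⟨c, hc, h1, by rw [one_smul]⟩ }
  rcases S5393.result.2 W ⟨_, _, sign_univ ▸ hn, ind_univ⟩ (by rintro - ⟨c, hc, -, rfl⟩; exact hc)
    (by
      rintro σ hσ - ⟨c, hc, h1, rfl⟩
      exact ⟨_, _, perm_sign ⟨σ, hσ⟩ hc ▸ h.2 _ (permCo_mem _) _ h1, ind_map σ c⟩) with e | e
  · refine Or.inl fun g hg => ?_
    obtain ⟨c, hc, rfl⟩ := h1 hg
    obtain ⟨a, ha⟩ := Submodule.mem_span_singleton.1 (e.le (⟨c, hc, hg, rfl⟩ : ind c ∈ W))
    rcases zmod2_cases a with rfl | rfl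
    · obtain rfl : ∅ = c := ind_injective (by rw [← ha, zero_smul, ind_empty])
      exact Or.inl sign_empty
    · obtain rfl : Finset.univ = c := ind_injective (by rw [← ha, one_smul, ind_univ]; rfl)
      exact Or.inr sign_univ
  · refine Or.inr (le_antisymm h1 ?_)
    rintro - ⟨c, hc, rfl⟩
    obtain ⟨d, hd, h1, h2⟩ := e.ge (show ind c ∈ golayCode from hc)
    obtain rfl := ind_injective h2
    exact h1

end Cfsg.Agent.MT
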