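import Mathlib
import Cfsg.Agent.MT.Basic
import Cfsg.Agent.MT.Nm

/-! The conjugates of `z` in `Q` for a group of Monster type. -/

set_option autoImplicit false
set_option linter.unusedSectionVars false
set_option linter.dupNamespace false

namespace Cfsg.Agent.MT

open Cfsg Subgroup LocalEven Fischer PLocal Leech

variable {G : Type*} [Group G] [Finite G] {Q Q' : Subgroup G} {z s : G}

theorem card_map_ker {G H : Type*} [Group G] [Group H] (φ : G →* H) (S : Subgroup G) :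
    Nat.card (S.map φ) * Nat.card (S ⊓ φ.ker : Subgroup G) = Nat.card S := by
  rw [← (φ.ker.subgroupOf S).index_mul_card, ← MonoidHom.ker_domRestrict, Subgroup.index_ker,
    MonoidHom.domRestrict_range, MonoidHom.ker_domRestrict, inf_comm, ← inf_subgroupOf_right]
  congr 1
  exact (card_subgroupOf inf_le_right).symm

/-- The automorphisms of the lattice induced by `H`. -/
def img (φ : centralizer ({z} : Set G) →* Spor.Co1) (H : Subgroup G) : Subgroup Co0 :=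
  ((H.subgroupOf (centralizer {z})).map φ).comap (QuotientGroup.mk' (center Co0))

theorem mem_img {φ : centralizer ({z} : Set G) →* Spor.Co1} {H : Subgroup G} {g : Co0} :
    g ∈ img φ H ↔ ∃ a ∈ H, PP φ a g :=
  ⟨fun ⟨a, h1, h2⟩ => ⟨a, h1, a.2, h2⟩, fun ⟨a, h1, h2, h3⟩ => ⟨⟨a, h2⟩, h1, h3⟩⟩

theorem neg_mem_img (φ : centralizer ({z} : Set G) →* Spor.Co1) (H : Subgroup G) :
    negCo ∈ img φ H := mem_img.2 ⟨1, one_mem H, by simpa using (pp_one (φ := φ)).neg⟩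

/-- The stabilizer of a class modulo `2`. -/
def St (v : leechLattice) : Subgroup Co0 where
  carrier := {g | Cong (g • v) v}
  one_mem' := by simpa using Cong.refl _
  mul_mem' := fun {a b} ha hb => by
    change Cong ((a * b) • v) _
    rw [mul_smul]; exact (Cong.smul hb a).trans ha
  inv_mem' := fun {a} ha => by
    have := Cong.smul ha a⁻¹
    rw [inv_smul_smul] at this; exact this.symm

theorem St_e8 : St (e8 none) = Nm := rfl

theorem vv_norm : sqNorm (vv : V) = 32 := by decide +kernel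

theorem mem_St32 {v : leechLattice} (hv : sqNorm (v : V) = 32) {g : Co0} :
    g ∈ St v ↔ g • v = v ∨ (g * negCo) • v = v := by
  rw [mul_smul, negCo_smul, smul_neg, neg_eq_iff_eq_neg]
  refine ⟨fun h => ?_, ?_⟩
  · rcases Cong.short h (by rw [Leech.norm_smul]; omega) (by omega) with e | e | e
    exacts [Or.inl e, Or.inr e, by omega]
  · rintro (e | e) <;> change Cong _ _ <;> rw [e]
    exacts [Cong.refl _, (cong_neg v).symm]

theorem pr_card (hp : Pr Q Q' z s) (hc : Nat.card Q' = 2 ^ 25) :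
    Nat.card (Q' ⊓ centralizer {z} : Subgroup G) = 2 ^ 24 := by
  have := es_card_cent hp.r.toES hp.hz hp.l.ne hp.ne.symm
  omega

theorem pr_not_le (hp : Pr Q Q' z s) (hc : Nat.card Q' = 2 ^ 25) :
    ¬ Q' ⊓ centralizer {z} ≤ Q := fun hle => by
  have h1 : ∀ x ∈ Q' ⊓ centralizer {z}, x * x = 1 := fun x hx => hp.E_sq ⟨hle hx, hx.1⟩
  have h2 : Q' ⊓ centralizer {z} ≤ closure {s, z} := fun x hx => by
    rw [hp.symm.mem_V]
    have := hp.r.cent_cent hp.hz hx.1 fun p h3 h4 =>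
      ((es_sq_mul hp.r.toES hx.1 h3).1 (h1 _ (mul_mem hx
        ⟨h3, Inv.mem_centralizer_single.2 h4.symm⟩))).1 (by
        rw [h1 x hx, h1 p ⟨h3, Inv.mem_centralizer_single.2 h4.symm⟩])
    rwa [← hp.comm.eq]
  have := card_le_of_le h2
  rw [pr_card hp hc, hp.symm.four.card_four] at this
  omega

namespace MT

variable {R : leechLattice → G → Prop} {φ : centralizer ({z} : Set G) →* Spor.Co1}
  (h : MT z Q R φ) {v w : leechLattice} {x y a : G} {g : Co0}
include h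

theorem card_img {H : Subgroup G} (hH : H ≤ centralizer {z}) :
    Nat.card (img φ H) * Nat.card (H ⊓ Q : Subgroup G) = 2 * Nat.card H := by
  rw [img, Core.card_comap_mk', card_center, mul_assoc, ← card_subgroupOf hH,
    ← card_map_ker φ (H.subgroupOf _), ← card_subgroupOf (inf_le_left.trans hH)]
  congr 4
  ext a; simp [mem_subgroupOf, h.φker]

theorem pp_St (hv : R v s) (ha : PP φ a g) (hc : Commute a s) : g ∈ St v :=
  (h.iff (h.act' ha hv) hv).2 (Or.inl (Inv.commute_iff_conj.1 hc).symm)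

theorem lift_St (hv : R v s) (h1 : s ≠ 1) (h2 : s ≠ z) (hg : g ∈ St v) :
    ∃ a, PP φ a g ∧ Commute a s := by
  obtain ⟨a, ha⟩ := h.exists_lift g
  rcases (h.iff (h.act' ha hv) hv).1 hg with e | e
  · exact ⟨a, ha, Inv.commute_iff_conj.2 e.symm⟩
  · obtain ⟨q, hq, hq'⟩ := h.es.exists_conj (h.mem hv) h1 h2
    refine ⟨a * q, by simpa using ha.mul (h.pp_Q hq), Inv.commute_iff_conj.2 ?_⟩
    rw [show a * q * s * (a * q)⁻¹ = a * (q * s * q⁻¹) * a⁻¹ by group, hq', ← mul_assoc,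
      mul_assoc (a * s), ← ha.comm.inv_left.eq, ← mul_assoc, ← e]

theorem img_cent (hv : R v s) (h1 : s ≠ 1) (h2 : s ≠ z) :
    img φ (centralizer {z} ⊓ centralizer {s}) = St v := by
  ext g
  rw [mem_img]
  exact ⟨fun ⟨a, h3, ha⟩ => h.pp_St hv ha (Inv.mem_centralizer_single.1 h3.2), fun hg =>
    (h.lift_St hv h1 h2 hg).imp fun a ha => ⟨⟨ha.1.1, Inv.mem_centralizer_single.2 ha.2⟩, ha.1⟩⟩

theorem img_two {H : Subgroup G} (hH : IsPGroup 2 H) : IsPGroup 2 (img φ H) := by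
  refine isPGroup_iff_mem.2 fun g hg => ?_
  obtain ⟨a, h1, ha⟩ := mem_img.1 hg
  obtain ⟨k, hk⟩ := isPGroup_iff_mem.1 hH a h1
  have := ha.pow (2 ^ k)
  rw [hk, ] at this
  refine ⟨k + 1, ?_⟩
  rw [pow_succ, pow_mul, pow_two]
  rcases (h.pp_iff this).1 (one_mem Q) with e | e <;> rw [e]
  exacts [mul_one 1, negCo_sq]

theorem img_normIn (hp : Pr Q Q' z s) (hv : R v s) :
    NormIn (img φ (Q' ⊓ centralizer {z})) (St v) := by
  refine ⟨fun g hg => ?_, fun g hg n hn => ?_⟩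
  · obtain ⟨a, h1, ha⟩ := mem_img.1 hg
    exact h.pp_St hv ha (hp.r.central a h1.1).symm
  · obtain ⟨b, h1, hb⟩ := mem_img.1 hn
    obtain ⟨a, ha, hc⟩ := h.lift_St hv hp.r.ne hp.ne hg
    exact mem_img.2 ⟨_, ⟨hp.r.norm a hc b h1.1, (ha.conj hb).1⟩, ha.conj hb⟩

theorem pr {k : G} (hs : k * z * k⁻¹ ∈ Q) (hne : k * z * k⁻¹ ≠ z) :
    Pr Q (cj k Q) z (k * z * k⁻¹) ∧ Nat.card (cj k Q) = 2 ^ 25 :=
  ⟨pr_of h.ls hs hne, by rw [card_cj, h.card]⟩

theorem not32 (hx : R v x) (hn : sqNorm (v : V) = 32) : ¬ IsConj z x := by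
  intro hc
  obtain ⟨s, hs⟩ := h.ex vv
  obtain ⟨a, -, -, -, e⟩ := h.conj_of_norm hx hs (by rintro rfl; simp [sqNorm_zero] at hn)
    (by omega) (by rw [hn, vv_norm])
  obtain ⟨k, rfl⟩ := isConj_iff.1 (hc.trans (isConj_iff.2 ⟨a, e⟩))
  obtain ⟨hp, hc⟩ := h.pr (h.mem hs)
    (h.ne_of_short hs (by decide +kernel) (by rw [vv_norm]; decide)).2
  have hN := h.img_normIn hp hs
  rcases hN.inf_simple (K := MulAction.stabilizer Co0 vv)
    (fun g hg => (mem_St32 vv_norm).2 (Or.inl hg)) simple_co2 with e | e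
  · refine pr_not_le hp hc fun b hb => ?_
    obtain ⟨g, hg⟩ := exists_pp φ (Inv.mem_centralizer_single.1 hb.2)
    rw [h.pp_iff hg]
    rcases (mem_St32 vv_norm).1 (hN.1 (mem_img.2 ⟨b, hb, hg⟩)) with e1 | e1
    · exact Or.inl (mem_bot.1 (e ▸ mem_inf.2 ⟨mem_img.2 ⟨b, hb, hg⟩, e1⟩))
    · have : g * negCo = 1 := mem_bot.1 (e ▸ mem_inf.2 ⟨mem_img.2 ⟨b, hb, hg.neg⟩, e1⟩)
      exact Or.inr (by rw [← mul_one g, ← negCo_sq, ← mul_assoc, this, one_mul])
  · refine not_two ?_ ((h.img_two (hp.r.isPGroup.to_le inf_le_left)).to_le e)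
    rw [card_stab32 _ vv_norm]; decide

/-- A conjugate of `z` in `Q` other than `z` belongs to a vector of norm `64`. -/
theorem exists64 (hx : x ∈ Q) (hc : IsConj z x) (hne : x ≠ z) :
    ∃ v, R v x ∧ sqNorm (v : V) = 64 := by
  obtain ⟨k, rfl⟩ := isConj_iff.1 hc
  obtain ⟨v, hv, e | e⟩ := h.invol_cases hx (h.es.cj k).zsq (h.es.cj k).ne hne
  exacts [absurd hc (h.not32 hv e), ⟨v, hv, e⟩]

theorem ne64 (hx : R v x) (hn : sqNorm (v : V) = 64) : x ≠ 1 ∧ x ≠ z :=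
  h.ne_of_short hx (by rintro rfl; simp [sqNorm_zero] at hn) hn.le

theorem ne32 (hx : R v x) (hn : sqNorm (v : V) = 32) : x ≠ 1 ∧ x ≠ z :=
  h.ne_of_short hx (by rintro rfl; simp [sqNorm_zero] at hn) (by omega)

theorem conj64 (hx : R v x) (hy : R w y) (hn : sqNorm (v : V) = 64) (hm : sqNorm (w : V) = 64) :
    ∃ a g, PP φ a g ∧ g • v = w ∧ a * x * a⁻¹ = y :=
  h.conj_of_norm hx hy (by rintro rfl; simp [sqNorm_zero] at hn) hn.le (by rw [hn, hm])

theorem conj32 (hx : R v x) (hy : R w y) (hn : sqNorm (v : V) = 32) (hm : sqNorm (w : V) = 32) :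
    ∃ a g, PP φ a g ∧ g • v = w ∧ a * x * a⁻¹ = y :=
  h.conj_of_norm hx hy (by rintro rfl; simp [sqNorm_zero] at hn) (by omega) (by rw [hn, hm])

theorem isConj64 (hx : R v x) (hn : sqNorm (v : V) = 64) : IsConj z x := by
  obtain ⟨k, h1, h2⟩ := h.nwc
  have hc : IsConj z (k * z * k⁻¹) := isConj_iff.2 ⟨k, rfl⟩
  obtain ⟨w, hw, hm⟩ := h.exists64 h1 hc h2
  obtain ⟨a, -, -, -, e⟩ := h.conj64 hw hx hm hn
  exact hc.trans (isConj_iff.2 ⟨a, e⟩)

theorem exists32 (hx : x ∈ Q) (h2 : orderOf x = 2) (hc : ¬ IsConj z x) :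
    ∃ v, R v x ∧ sqNorm (v : V) = 32 := by
  obtain ⟨v, hv, e | e⟩ := h.invol_cases hx (by rw [← pow_two, ← h2, pow_orderOf_eq_one])
    (by rintro rfl; simp at h2) (by rintro rfl; exact hc (IsConj.refl _))
  exacts [⟨v, hv, e⟩, absurd (h.isConj64 hv e) hc]

theorem img_eq (hp : Pr Q Q' z s) (hc : Nat.card Q' = 2 ^ 25) (hs : R (e8 none) s) :
    img φ (Q' ⊓ centralizer {z}) = Sg := by
  refine (nm_two (h.img_normIn hp hs) (h.img_two (hp.r.isPGroup.to_le inf_le_left))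
    (neg_mem_img _ _)).resolve_left fun e => pr_not_le hp hc fun b hb => ?_
  obtain ⟨g, hg⟩ := exists_pp φ (Inv.mem_centralizer_single.1 hb.2)
  exact (h.pp_iff hg).2 (e g (mem_img.2 ⟨b, hb, hg⟩))

theorem card_inf0 (hp : Pr Q Q' z s) (hc : Nat.card Q' = 2 ^ 25) (hs : R (e8 none) s) :
    Nat.card (Q ⊓ Q' : Subgroup G) = 2 ^ 13 := by
  have := h.card_img (H := Q' ⊓ centralizer {z}) inf_le_right
  rw [h.img_eq hp hc hs, card_Sg, pr_card hp hc, show Q' ⊓ centralizer {z} ⊓ Q = Q ⊓ Q' from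
    le_antisymm (fun x hx => ⟨hx.2, hx.1.1⟩) fun x hx =>
      ⟨⟨hx.2, Inv.mem_centralizer_single.2 (h.es.central x hx.1).symm⟩, hx.1⟩] at this
  omega

/-- Twisting the identification by an automorphism of the lattice. -/
theorem twist (g : Co0) : MT z Q (fun v => R (g • v))
    ((MulAut.conj (QuotientGroup.mk g : Spor.Co1)⁻¹).toMonoidHom.comp φ) := by
  have hc : ∀ v w, Cong (g • v) (g • w) ↔ Cong v w := fun v w =>
    ⟨fun e => by simpa using e.smul g⁻¹, fun e => e.smul g⟩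
  refine ⟨h.ls, h.card, h.mem, fun v => h.ex _, fun x hx => ?_, fun h1 h2 => ?_, fun h1 h2 => ?_,
    fun h1 h2 => h.cong h1 (h2.smul g), h.mulz,
    (MulAut.conj (QuotientGroup.mk g : Spor.Co1)⁻¹).surjective.comp h.φsurj, fun a => ?_,
    fun a k e v x hx => ?_, h.nwc⟩
  · obtain ⟨v, hv⟩ := h.surj x hx
    exact ⟨g⁻¹ • v, by rwa [smul_inv_smul]⟩
  · rw [smul_add]; exact h.add h1 h2
  · rw [← h.iff h1 h2, hc]
  · rw [← h.φker, MonoidHom.comp_apply, MulEquiv.coe_toMonoidHom, MulEquiv.map_eq_one_iff]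
  · have := h.act a (g * k * g⁻¹) (by
      rw [QuotientGroup.mk_mul, QuotientGroup.mk_mul, ← e, QuotientGroup.mk_inv]
      simp [mul_assoc]) hx
    rwa [mul_smul, inv_smul_smul, mul_smul] at this

theorem std (hx : x ∈ Q) (hc : IsConj z x) (hne : x ≠ z) : ∃ R φ, MT z Q R φ ∧ R (e8 none) x := by
  obtain ⟨v, hv, hn⟩ := h.exists64 hx hc hne
  obtain ⟨g, rfl⟩ := trans_norm (e8 none) v (e8_norm _).le (by rw [hn, e8_norm])
  exact ⟨_, _, h.twist g, hv⟩

theorem std32 (hx : x ∈ Q) (h2 : orderOf x = 2) (hc : ¬ IsConj z x) :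
    ∃ R φ, MT z Q R φ ∧ R vv x := by
  obtain ⟨v, hv, hn⟩ := h.exists32 hx h2 hc
  obtain ⟨g, rfl⟩ := trans_norm vv v (by rw [vv_norm]; decide) (by rw [hn, vv_norm])
  exact ⟨_, _, h.twist g, hv⟩

theorem card_inf {k : G} (hs : k * z * k⁻¹ ∈ Q) (hne : k * z * k⁻¹ ≠ z) :
    Nat.card (Q ⊓ cj k Q : Subgroup G) = 2 ^ 13 := by
  obtain ⟨R, φ, h', hv⟩ := h.std hs (isConj_iff.2 ⟨k, rfl⟩) hne
  exact h'.card_inf0 (h.pr hs hne).1 (h.pr hs hne).2 hv

end MT

theorem exists_mt {z : G} {Q : Subgroup (centralizer ({z} : Set G))} [Q.Normal]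
    (hM : IsOfMonsterType z Q) : ∃ R φ, MT z (Q.map (centralizer ({z} : Set G)).subtype) R φ := by
  obtain ⟨h1, e, ψ, h2⟩ := hM
  exact ⟨_, _, mt_of h1 h2⟩

theorem mem_of_ex {z : G} {Q : Subgroup (centralizer ({z} : Set G))} {s : G}
    (h : ∃ hs : s ∈ centralizer ({z} : Set G), (⟨s, hs⟩ : centralizer ({z} : Set G)) ∈ Q) :
    s ∈ Q.map (centralizer ({z} : Set G)).subtype := mem_map_of_mem _ h.2

end Cfsg.Agent.MT
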