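import Mathlib
import Cfsg.Agent.MT.Four

/-! The centralizer of a `2A`-involution of a group of Monster type. -/

set_option autoImplicit false
set_option linter.unusedSectionVars false
set_option linter.dupNamespace false

namespace Cfsg.Agent.MT

open Cfsg Subgroup LocalEven Fischer PLocal Leech

variable {G : Type*} [Group G] [Finite G] {Q Q' : Subgroup G} {z s : G}

theorem exists_equiv_of_rel {D K : Type*} [Group D] [Group K] (N : Subgroup D) [N.Normal]
    (r : D → K → Prop) (mul : ∀ a b g k, r a g → r b k → r (a * b) (g * k)) (ex : ∀ a, ∃ g, r a g)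
    (sur : ∀ g, ∃ a, r a g) (uniq : ∀ a g k, r a g → r a k → g = k) (ker : ∀ a, r a 1 ↔ a ∈ N) :
    ∃ e : D ⧸ N ≃* K, ∀ a g, e (QuotientGroup.mk a) = g ↔ r a g := by
  choose χ hχ using ex
  have h : ∀ a g, χ a = g ↔ r a g := fun a g => ⟨fun e => e ▸ hχ a, uniq a _ _ (hχ a)⟩
  let f : D →* K := MonoidHom.mk' χ fun a b => (h _ _).2 (mul _ _ _ _ (hχ a) (hχ b))
  exact ⟨(QuotientGroup.quotientMulEquivOfEq (show N = f.ker from by
    ext a; exact ((h a 1).trans (ker a)).symm)).trans (QuotientGroup.quotientKerEquivOfSurjective f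
      fun g => (sur g).imp fun a ha => (h a g).2 ha), h⟩

theorem ls_le (h : LS Q z) : Q ≤ centralizer {z} := fun x hx =>
  Inv.mem_centralizer_single.2 (h.central x hx).symm

theorem ls_normal (h : LS Q z) : (Q.subgroupOf (centralizer {z})).Normal :=
  ⟨fun n hn g => h.norm g (Inv.mem_centralizer_single.1 g.2) n hn⟩

theorem setting_of (h : LS Q z) {w : ℕ} (hc : Nat.card Q = 2 ^ (2 * w + 1))
    [(Q.subgroupOf (centralizer {z})).Normal] {K : Type*} [Group K]
    (e : centralizer {z} ⧸ Q.subgroupOf (centralizer {z}) ≃* K)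
    (hK : ∀ N : Subgroup K, N.Normal → IsPGroup 2 N → N = ⊥)
    (hn : ∃ g : G, g * z * g⁻¹ ∈ Q ∧ g * z * g⁻¹ ≠ z) :
    IsExtraspecialCentralizerSetting z (Q.subgroupOf (centralizer {z})) w := by
  have hE := es_subgroupOf h.toES (ls_le h)
  have h1 : pCore 2 (centralizer ({z} : Set G)) = Q.subgroupOf (centralizer {z}) := by
    refine le_antisymm (fun a ha => ?_) (Comp2.le_pCore hE.isPGroup)
    let f := e.toMonoidHom.comp (QuotientGroup.mk' _)
    have := hK ((pCore 2 _).map f)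
      (Normal.map inferInstance f (e.surjective.comp (QuotientGroup.mk'_surjective _)))
      ((Comp2.pCore_isPGroup 2).map f)
    exact (QuotientGroup.eq_one_iff a).1 (e.map_eq_one_iff.1
      (mem_bot.1 (this ▸ mem_map_of_mem f ha)))
  obtain ⟨g, h2, h3⟩ := hn
  refine ⟨h.orderOf, ?_, hE.isExtraspecial, by rw [card_subgroupOf (ls_le h), hc],
    g, ⟨ls_le h h2, h2⟩, h3⟩
  rw [← h1, Comp2.genFitting_eq_pCore_iff, h1]
  exact fun c hc => h.cmem c fun x hx => congrArg Subtype.val (hc ⟨x, ls_le h hx⟩ hx).symm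

theorem two_eq_bot {K : Type*} [Group K] [Finite K] (hs : IsSimpleGroup K) (h3 : 3 ∣ Nat.card K)
    (N : Subgroup K) (hN : N.Normal) (h2 : IsPGroup 2 N) : N = ⊥ :=
  (hs.eq_bot_or_eq_top_of_normal N hN).resolve_right fun e => not_two (by rwa [e, card_top]) h2

theorem pr_key (hp : Pr Q Q' z s) {t : G} (h1 : t ∈ Q) (h2 : s ≠ t) (h3 : s ≠ t * z) :
    ∃ y ∈ Q ⊓ centralizer {t}, y * s * y⁻¹ = s * z := by
  by_contra hcon
  push Not at hcon
  rcases hp.l.cent_cent h1 hp.hs (fun p h4 htp => by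
    by_contra hc
    exact hcon p ⟨h4, Inv.mem_centralizer_single.2 htp.symm⟩
      (hp.l.conj_eq h4 hp.hs fun e => hc e.symm)) with e | e | e | e
  exacts [hp.r.ne e, hp.ne e, h2 e, h3 e]

theorem exists_cd : ∃ c d, Cw c ∧ Cw d ∧ (c ∩ d).card = 2 :=
  ⟨_, _, cw_supp.2 (qr_mem_code 0), cw_supp.2 (add_mem (add_mem (qr_mem_code 1) (qr_mem_code 2))
    (qr_mem_code 5)), by decide +kernel⟩

/-- The second Conway group as a stabilizer in `Co0`. -/
def co2Equiv : MulAction.stabilizer Co0 vv ≃* Spor.Co2 where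
  toFun g := ⟨g.1.1, g.1.2, g.2⟩
  invFun g := ⟨⟨g.1, g.2.1⟩, g.2.2⟩
  left_inv _ := rfl
  right_inv _ := rfl
  map_mul' _ _ := rfl

namespace MT

variable {R : leechLattice → G → Prop} {φ : centralizer ({z} : Set G) →* Spor.Co1}
  (h : MT z Q R φ) {v w : leechLattice} {x y a t : G} {g : Co0}
include h

theorem r_inv (hx : R v x) : R v x⁻¹ := by
  rcases h.es.sq x (h.mem hx) with e | e
  · rwa [inv_eq_of_mul_eq_one_right e]
  · rw [inv_eq_of_mul_eq_one_right (show x * (x * z) = 1 by rw [← mul_assoc, e, h.es.zsq])]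
    exact h.mulz hx

theorem exists_t (ht : R v t) (hn : sqNorm (v : V) = 32) :
    ∃ k, k * z * k⁻¹ ∈ Q ∧ k * z * k⁻¹ ≠ z ∧ t ∈ cj k Q := by
  obtain ⟨s, hs⟩ := h.ex (e8 none)
  obtain ⟨k, rfl⟩ := isConj_iff.1 (h.isConj64 hs (e8_norm _))
  have hne := (h.ne64 hs (e8_norm _)).2
  obtain ⟨hp, hc⟩ := h.pr (h.mem hs) hne
  obtain ⟨c, d, h1, h2, h3⟩ := exists_cd
  obtain ⟨a, ha, ha'⟩ := mem_img.1 ((h.img_eq hp hc hs).ge (sign_mem_Sg h2))
  obtain ⟨q, hq⟩ := h.ex (tw c h1)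
  have h4 : Commute q (k * z * k⁻¹) := (h.comm_iff hq hs).2 (by
    rw [dot_e8, tw_apply]; split_ifs <;> decide)
  have h5 := h.cong (h.add (h.act' ha' hq) (h.r_inv hq)) (cong_sub _ _)
  obtain ⟨b, g, hb, -, e⟩ := h.conj32 h5 ht (by
    have : ∀ i, ((signCo d h2 • tw c h1 - tw c h1 : leechLattice) : V) i ^ 2 =
        if i ∈ c ∩ d then 16 else 0 := fun i => by
      rw [AddSubgroup.coe_sub, Pi.sub_apply, signCo_apply, tw_apply]
      by_cases e1 : i ∈ c <;> by_cases e2 : i ∈ d <;> simp [e1, e2]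
    rw [sqNorm_def, Finset.sum_congr rfl fun i _ => this i, Finset.sum_ite_mem, Finset.univ_inter,
      Finset.sum_const, h3]; rfl) hn
  have e1 : b * k * z * (b * k)⁻¹ = b * (k * z * k⁻¹) * b⁻¹ := by group
  refine ⟨b * k, e1 ▸ h.ls.norm b hb.comm _ hp.hs, fun e2 => hne ?_, ?_⟩
  · exact mul_left_cancel (mul_right_cancel
      (e1.symm.trans (e2.trans (Inv.commute_iff_conj.1 hb.comm).symm)))
  · rw [cj_mul, ← e, conj_mem_cj_iff, show a * q * a⁻¹ * q⁻¹ = a * (q * a⁻¹ * q⁻¹) by group]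
    exact mul_mem ha.1 (hp.r.norm q h4 _ (inv_mem ha.1))

theorem lift_vv (ht : R vv t) (h1 : Commute a z) (h2 : Commute a t) :
    ∃ g : MulAction.stabilizer Co0 vv, PP φ a g := by
  obtain ⟨g, hg⟩ := exists_pp φ h1
  rcases (mem_St32 norm_vv).1 (h.pp_St ht hg h2) with e | e
  exacts [⟨⟨g, e⟩, hg⟩, ⟨⟨_, e⟩, hg.neg⟩]

theorem vv_uniq {g k : MulAction.stabilizer Co0 vv} (h1 : PP φ a g) (h2 : PP φ a k) : k = g := by
  refine Subtype.ext ((h1.eq_or h2).resolve_right fun e => ?_)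
  have := k.2
  rw [MulAction.mem_stabilizer_iff, e, mul_smul, negCo_smul, smul_neg, g.2] at this
  exact absurd this (by decide +kernel)

theorem baby (ht : R vv t) [((zpowers t).subgroupOf (centralizer {t})).Normal] :
    IsOfBabyMonsterType (centralizer {t} ⧸ (zpowers t).subgroupOf (centralizer {t})) := by
  obtain ⟨t1, t2⟩ := h.ne32 ht norm_vv
  have htQ := h.mem ht
  have ht2 := h.sq32 ht norm_vv
  have hzt : Commute z t := h.es.central t htQ
  have hz : z ∈ Q ⊓ centralizer {t} := ⟨h.es.mem, Inv.mem_centralizer_single.2 hzt⟩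
  set f := QuotientGroup.mk' ((zpowers t).subgroupOf (centralizer ({t} : Set G)))
  have hf : ∀ a b : centralizer ({t} : Set G), f a = f b ↔ (b : G) = a ∨ (b : G) = a * t :=
    fun a b => by
      rw [QuotientGroup.mk'_apply, QuotientGroup.mk'_apply, QuotientGroup.eq,
        mem_subgroupOf, mem_zpowers_two ht2]
      simp only [coe_mul, coe_inv, inv_mul_eq_iff_eq_mul, mul_one]
  have hfc : ∀ a b : centralizer ({t} : Set G), Commute (f a) (f b) →
      (a : G) * b * (a : G)⁻¹ = b ∨ (a : G) * b * (a : G)⁻¹ = b * t := fun a b e =>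
    (hf b (a * b * a⁻¹)).1 (by rw [map_mul, map_mul, map_inv, Inv.commute_iff_conj.1 e])
  have n1 : ¬ IsConj z t := h.not32 ht norm_vv
  have n2 : ¬ IsConj z (t * z) := h.not32 (h.mulz ht) norm_vv
  have hcz : ∀ c : centralizer ({t} : Set G), Commute (f c) (f ⟨z, hz.2⟩) → Commute (c : G) z :=
    fun c e => (hfc _ _ e).elim Inv.commute_iff_conj.2 fun e =>
      (n2 (isConj_iff.2 ⟨c, e.trans hzt.eq⟩)).elim
  have hcz' : ∀ c : centralizer ({t} : Set G), Commute (c : G) z →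
      f c ∈ centralizer {f ⟨z, hz.2⟩} := fun c e => Inv.mem_centralizer_single.2
    (Commute.map (show Commute c ⟨z, hz.2⟩ from Subtype.ext e) f)
  set Q0 := ((Q ⊓ centralizer {t}).subgroupOf (centralizer {t})).map f with hQ0
  have hQ : ∀ c, f c ∈ Q0 ↔ (c : G) ∈ Q := fun c => ⟨fun ⟨p, hp, e⟩ => by
    rcases (hf _ _).1 e with e | e <;> rw [e]
    exacts [hp.1, mul_mem hp.1 htQ], fun hc => ⟨c, ⟨hc, c.2⟩, rfl⟩⟩
  have hsur := QuotientGroup.mk'_surjective ((zpowers t).subgroupOf (centralizer ({t} : Set G)))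
  have hN : (Q0.subgroupOf (centralizer {f ⟨z, hz.2⟩})).Normal := ⟨fun n hn d => by
    obtain ⟨c, hc⟩ := hsur d
    obtain ⟨p, hp, e⟩ := hn
    rw [mem_subgroupOf, coe_mul, coe_mul, coe_inv, ← hc, show (n : _ ⧸ _) = f p from e.symm,
      ← map_inv, ← map_mul, ← map_mul, hQ]
    exact h.ls.norm c (hcz c (hc ▸ Inv.mem_centralizer_single.1 d.2)) p hp.1⟩
  obtain ⟨e, he⟩ := exists_equiv_of_rel (Q0.subgroupOf (centralizer {f ⟨z, hz.2⟩}))
    (fun d (g : MulAction.stabilizer Co0 vv) => ∃ c, f c = d ∧ PP φ c g)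
    (fun a b g k ⟨c, e1, h1⟩ ⟨d, e2, h2⟩ => ⟨c * d, by rw [map_mul, e1, e2]; rfl, h1.mul h2⟩)
    (fun d => by
      obtain ⟨c, hc⟩ := hsur d
      obtain ⟨g, hg⟩ := h.lift_vv ht (hcz c (hc ▸ Inv.mem_centralizer_single.1 d.2))
        (Inv.mem_centralizer_single.1 c.2)
      exact ⟨g, c, hc, hg⟩)
    (fun g => by
      obtain ⟨a, h1, h2⟩ := h.lift_St ht t1 t2 ((mem_St32 norm_vv).2 (Or.inl g.2))
      exact ⟨⟨_, hcz' ⟨a, Inv.mem_centralizer_single.2 h2⟩ h1.comm⟩, _, rfl, h1⟩)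
    (fun a g k ⟨c, e1, h1⟩ ⟨d, e2, h2⟩ => by
      refine h.vv_uniq h2 ?_
      rcases (hf _ _).1 (e2.trans e1.symm) with e | e <;> rw [e] at h1
      · exact h1
      · simpa [mul_assoc] using h1.mul (h.pp_Q (inv_mem htQ)))
    (fun a => ⟨fun ⟨c, e1, h1⟩ => by
      rw [mem_subgroupOf, ← e1, hQ, h.pp_iff h1]; exact Or.inl rfl,
      fun ⟨c, h1, e1⟩ => ⟨c, e1, h.pp_Q h1.1⟩⟩)
  obtain ⟨k, k1, k2, k3⟩ := h.exists_t ht norm_vv
  have hp := (h.pr k1 k2).1
  have s1 : k * z * k⁻¹ ≠ t := fun e => n1 (isConj_iff.2 ⟨k, e⟩)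
  have s2 : k * z * k⁻¹ ≠ t * z := fun e => n2 (isConj_iff.2 ⟨k, e⟩)
  have hs : k * z * k⁻¹ ∈ Q ⊓ centralizer {t} :=
    ⟨k1, Inv.mem_centralizer_single.2 (hp.r.central t k3)⟩
  obtain ⟨y, hy, hys⟩ := pr_key hp htQ s1 s2
  obtain ⟨y', hy', hyz⟩ := pr_key hp.symm k3 t2.symm fun e => s2 (by
    nth_rewrite 2 [e]; rw [← mul_assoc, ht2, one_mul])
  have hL : LS Q0 (f ⟨z, hz.2⟩) := by
    refine ls_map h.es inf_le_left hz inf_le_right f hsur (fun e => ?_) (fun c hc => ?_)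
      (fun c hc => ⟨c, rfl, le_normalizer_inf (L := zpowers (c : G))
        (zpowers_le.2 (h.ls.mem_normalizer (hcz c hc))) (zpowers_le.2 (le_normalizer c.2))
        (mem_zpowers _)⟩) ?_
    · rcases (hf 1 _).1 e.symm with e | e
      exacts [h.es.ne e, t2 (by simpa using e.symm)]
    · have h1 := hcz c (hc ⟨z, hz.2⟩ hz)
      let θ := e.toMonoidHom.comp (QuotientGroup.mk' _)
      have h2 : (c : G) ∈ Q := by
        rcases simple_co2.eq_bot_or_eq_top_of_normal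
          ((centralizer (Q0.subgroupOf (centralizer {f ⟨z, hz.2⟩}) : Set _)).map θ)
          (Normal.map inferInstance θ (e.surjective.comp (QuotientGroup.mk'_surjective _)))
          with e1 | e1
        · refine (hQ c).1 ((QuotientGroup.eq_one_iff ⟨f c, hcz' c h1⟩).1 (e.map_eq_one_iff.1
            (mem_bot.1 (e1 ▸ mem_map_of_mem θ ?_))))
          rintro x ⟨p, hp, e2⟩
          exact Subtype.ext (show x.1 * f c = f c * x.1 from
            (show f p = x.1 from e2) ▸ (hc p hp).symm)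
        · exfalso
          obtain ⟨g, hg, e2⟩ := trans_dot (v := vv) (w := fv (some 1) (some 2)) (c := 0) (by simp)
            norm_vv ⟨by decide +kernel, by decide +kernel⟩ (fv (some 1) (some 3))
            ⟨by decide +kernel, by decide +kernel⟩
          obtain ⟨d, hd, e3⟩ := e1.ge (mem_top ⟨g, hg⟩)
          obtain ⟨a, e4, ha⟩ := (he d _).1 e3
          obtain ⟨p, hp⟩ := h.ex (fv (some 1) (some 2))
          have h3 : p ∈ centralizer {t} :=
            Inv.mem_centralizer_single.2 ((h.comm_iff hp ht).2 (by decide +kernel))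
          have h4 := h.act' ha hp
          have h5 := congrArg Subtype.val (hd ⟨_, hcz' ⟨p, h3⟩ (h.es.central p (h.mem hp)).symm⟩
            ((hQ _).2 (h.mem hp)))
          rcases hfc a ⟨p, h3⟩ (e4 ▸ h5.symm) with e5 | e5 <;> rw [e5, e2] at h4
          · exact absurd (((h.iff hp h4).2 (Or.inl rfl)).short (by decide +kernel)
              (by decide +kernel)) (by decide +kernel)
          · exact absurd (((h.iff (h.add hp ht) h4).2 (Or.inl rfl)).short (by decide +kernel)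
              (by decide +kernel)) (by decide +kernel)
      rcases h.es.cent_cent htQ h2 (fun p hp htp => by
        have hpP : p ∈ Q ⊓ centralizer {t} := ⟨hp, Inv.mem_centralizer_single.2 htp.symm⟩
        rcases hfc c ⟨p, hpP.2⟩ (hc _ hpP) with e | e
        · exact Inv.commute_iff_conj.2 e
        · by_contra hcp
          exact t2 (mul_left_cancel (e.symm.trans (h.es.conj_eq h2 hp hcp)))) with e | e | e | e
      · exact Or.inl (((hf 1 c).2 (Or.inl e)).symm.trans (map_one f))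
      · exact Or.inr ((hf _ c).2 (Or.inl e)).symm
      · exact Or.inl (((hf 1 c).2 (Or.inr (by simpa using e))).symm.trans (map_one f))
      · exact Or.inr ((hf _ c).2 (Or.inr (e.trans hzt.eq.symm))).symm
    · exact ⟨y, hy, _, hs, h.es.not_commute_of_conj hys⟩
  have hE := es_subgroupOf hL.toES (ls_le hL)
  let S (x : leechPerpU) (q : Q0.subgroupOf (centralizer {f ⟨z, hz.2⟩})) : Prop :=
    ∃ p : centralizer ({t} : Set G), R x p ∧ f p = q.1.1
  have S1 : ∀ x, ∃ q, S x q := fun x => by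
    obtain ⟨p, hp⟩ := h.ex x
    have h3 : p ∈ centralizer {t} := Inv.mem_centralizer_single.2 ((h.comm_iff hp ht).2 x.2)
    exact ⟨⟨⟨_, hcz' ⟨p, h3⟩ (h.es.central p (h.mem hp)).symm⟩, (hQ _).2 (h.mem hp)⟩, _, hp, rfl⟩
  choose χ hχ using S1
  have S2 : ∀ x q, (QuotientGroup.mk (χ x) : _ ⧸ center _) = QuotientGroup.mk q ↔ S x q :=
    fun x q => by
      obtain ⟨p, h1, h2⟩ := hχ x
      rw [QuotientGroup.eq, mem_center_iff' hE, Subtype.ext_iff, Subtype.ext_iff]
      simp only [coe_mul, coe_inv, coe_one, inv_mul_eq_iff_eq_mul, mul_one, ← h2]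
      refine ⟨?_, fun ⟨p', h3, h4⟩ => ?_⟩
      · rintro (e | e)
        exacts [⟨p, h1, e.symm⟩, ⟨p * ⟨z, hz.2⟩, h.mulz h1, (map_mul f _ _).trans e.symm⟩]
      · rw [← h4, ← map_mul]
        exact ((h.iff h1 h3).1 (Cong.refl _)).imp (fun e => congrArg f (Subtype.ext e))
          fun e => congrArg f (Subtype.ext e)
  refine ⟨f ⟨z, hz.2⟩, _, hN, setting_of hL ?_ e (two_eq_bot simple_co2
    (by rw [card_stab32 _ norm_vv]; decide)) ⟨f ⟨y', hy'.2⟩, ?_⟩, e.trans co2Equiv,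
    fun x => QuotientGroup.mk (χ x), fun x y => ?_, fun q => ?_, fun x => ?_,
    fun d g e1 x y e2 q hq => ?_⟩
  · have h1 := card_map_ker f ((Q ⊓ centralizer {t}).subgroupOf (centralizer {t}))
    have h2 := es_card_cent h.es htQ t1 t2
    rw [QuotientGroup.ker_mk', inf_of_le_right (subgroupOf_mono _ (zpowers_le.2
      (mem_inf.2 ⟨htQ, Inv.mem_centralizer_single.2 rfl⟩))), card_subgroupOf inf_le_right,
      card_subgroupOf (zpowers_le.2 (Inv.mem_centralizer_single.2 rfl)), Nat.card_zpowers,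
      Inv.two_of_mul_self t1 ht2, ← hQ0] at h1
    rw [h.card] at h2
    omega
  · rw [← map_inv, ← map_mul, ← map_mul, hQ, Ne, eq_comm, hf]
    simp only [coe_mul, coe_inv, hyz, mul_eq_left, mul_right_inj, not_or]
    exact ⟨mul_mem h.es.mem k1, hp.r.ne, s1⟩
  · obtain ⟨p, h1, h2⟩ := hχ x
    obtain ⟨q, h3, h4⟩ := hχ y
    exact (S2 _ (χ x * χ y)).2 ⟨p * q, h.add h1 h3, by rw [map_mul, h2, h4]; rfl⟩
  · obtain ⟨q, rfl⟩ := QuotientGroup.mk_surjective q
    obtain ⟨p, hp, e⟩ := q.2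
    obtain ⟨v, hv⟩ := h.surj p hp.1
    exact ⟨⟨v, (h.comm_iff hv ht).1 (Inv.mem_centralizer_single.1 p.2)⟩, (S2 _ _).2 ⟨p, hv, e⟩⟩
  · refine (S2 x 1).trans ⟨fun ⟨p, h1, h2⟩ => ?_, ?_⟩
    · rcases (hf 1 p).1 h2.symm with e | e
      · obtain ⟨w, hw⟩ := ((h.cong_zero h1).2 (Or.inl e)).symm
        exact Or.inl ⟨w, by rw [← two_nsmul, ← hw, sub_zero]⟩
      · obtain ⟨w, hw⟩ := ((h.iff ht h1).2 (Or.inl (by simpa using e))).symm
        exact Or.inr ⟨w, by rw [← two_nsmul, ← hw]; exact (add_sub_cancel _ _).symm⟩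
    · rintro (⟨w, hw⟩ | ⟨w, hw⟩)
      · exact ⟨1, h.cong h.r_one (Cong.symm ⟨w, by rw [hw, two_nsmul, sub_zero]⟩), map_one f⟩
      · exact ⟨⟨t, Inv.mem_centralizer_single.2 rfl⟩, h.cong ht (Cong.symm ⟨w, by
          rw [hw, two_nsmul]; exact add_sub_cancel_left _ _⟩), ((hf 1 _).2 (Or.inr (by simp))).symm⟩
  · obtain ⟨c, h1, h2⟩ := (he d (co2Equiv.symm g)).1 (by rw [← e1]; rfl)
    obtain ⟨p, h3, h4⟩ := (S2 _ _).1 hq
    refine (S2 _ _).2 ⟨c * p * c⁻¹, e2 ▸ h.act' h2 h3, ?_⟩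
    rw [map_mul, map_mul, map_inv, h1, h4]; rfl

end MT

end Cfsg.Agent.MT
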