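import Cfsg.Agent.MT.Odd
import Cfsg.Agent.Leech.Pass
import Cfsg.Agent.Leech.Census
import Cfsg.Agent.Schur.Lee
import Cfsg.Agent.Pres.Alt1

/-! Computing in centralizers of elements of odd order of `Co0`. -/

set_option autoImplicit false
set_option linter.dupNamespace false

namespace Cfsg.Agent.MT
open Cfsg Subgroup Cfsg.Agent.Leech Cfsg.Agent.Comp Cfsg.Agent.Schur MulAction
open Cfsg.Agent.Golay (In mapL sumL force forceL bfs isZ force_eq add_eq_zero_iff' xor_eq_zero')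

theorem cent_le {x : Co0} {X a Y c0 m : ℕ} (hX : gc x = X) (p : ℕ) {y x0 : leechLattice}
    (hY : cd y = Y) (hy : sqNorm (y : V) = 32) {cs : List ℕ} (hin : In gc (stabilizer Co0 y) cs)
    (h0 : cd x0 = c0) (hx0 : x0 ∈ C1 y 16) (h1 : passS (cand (mapL prep (pows X a)) [] Y) = m)
    (W : List (List ℤ)) (d : ℕ) (levels : List (ℕ × ℕ))
    (h2 : bfs vact (mapL prep cs) c0 (4600 + 1) (finF fun L => forceL (mapL prep (pows X p))
      fun Xs => upErr Xs W d L levels (consMap (fun Z => vact Z Y) (mapL prep (pows X p)) [Y])) = 4600) :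
    Nat.card (centralizer ({x} : Set Co0)) ≤ m * (levels.map fun l => l.2).prod := by
  subst hY
  rw [Golay.card_eq_orbit_mul _ y]
  exact Nat.mul_le_mul (h1 ▸ orbit_le_pass (comm_pows hX le_rfl a) (fixes_nil _) hy)
    (card_le_of_bfs hin h0 (fun _ h => h.1) (ncard_4600' hy) hx0 (fun g hg _ h => C1.stab h g hg)
      (by norm_num) _ W d levels _ inf_le_right (comm_pows hX inf_le_left p)
      ((fixes_nil _).step (comm_pows hX le_rfl p) (hy.le.trans (by norm_num))) h2)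

theorem gc_perm {c : ℕ} (h : Golay.m24Err c = 0) :
    gc (permHom ⟨Golay.tp c, Golay.tp_mem_of_m24Err h⟩) = monoC c 0 :=
  (gc_mono _ ∅ cw_empty).trans (by rw [Golay.pc_tp_of_m24Err h]; rfl)

variable {b : Co0} {X p : ℕ} {cs : List ℕ} {t : ℕ → centralizer ({b} : Set Co0)} {w : List ℕ}

/-- Letters in the centralizer with given codes. -/
def Let (cs : List ℕ) (t : ℕ → centralizer ({b} : Set Co0)) : Prop :=
  ∀ w : List ℕ, (∀ x ∈ w, x < cs.length) → gc (ev t w).1 = evc cs w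

theorem exists_let (hX : gc b = X) (h1 : sumL errM cs = 0)
    (h2 : sumL (fun c => Nat.xor (gmul c X) (gmul X c)) cs = 0) :
    ∃ t : ℕ → centralizer ({b} : Set Co0), Let cs t := by
  have := in_cent (in_top h1) hX h2
  rw [top_inf_eq] at this
  obtain ⟨t, ht⟩ := exists_letters this
  exact ⟨t, fun w hw => (congrArg gc (map_ev t (Subgroup.subtype _) w)).trans
    (gc_ev fun x hx => ht x (hw x hx))⟩

/-- The classes of the letters. -/
noncomputable def bar (t : ℕ → centralizer ({b} : Set Co0)) (i : ℕ) : KB b := QuotientGroup.mk (t i)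

theorem ev_bar (w : List ℕ) : ev (bar t) w = QuotientGroup.mk (ev t w) :=
  (map_ev t (QuotientGroup.mk' _) w).symm

/-- zero if the letters are in range -/
noncomputable def rgE (cs w : List ℕ) : ℕ := sumL (fun x => Nat.sub (Nat.succ x) cs.length) w

theorem lt_of_rgE (h : rgE cs w = 0) : ∀ x ∈ w, x < cs.length := fun x hx =>
  Nat.sub_eq_zero_iff_le.1 (Golay.sumL_eq_zero h x hx)

/-- zero if the word is `1` or `-1` -/
noncomputable def pmE (cs w : List ℕ) : ℕ :=
  Nat.add (rgE cs w) (force (evc cs w) fun v => Nat.mul (Nat.xor v gone) (Nat.xor v gneg))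

theorem Let.one (h : Let cs t) (hp : Odd p) (hb : b ^ p = 1) (e : pmE cs w = 0) :
    ev (bar t) w = 1 := by
  obtain ⟨h1, h2⟩ := add_eq_zero_iff'.1 e
  rw [force_eq, ← h w (lt_of_rgE h1), ← gc_one, ← gc_negCo] at h2
  rw [ev_bar, QuotientGroup.eq_one_iff, mem_NB hp hb]
  exact ⟨0, (Nat.mul_eq_zero.mp h2).imp (fun e => by simpa using gc_injective (xor_eq_zero' e))
      fun e => by simpa using gc_injective (xor_eq_zero' e)⟩

/-- zero if `c` has odd order dividing `q` and moves the fixed vector `v` modulo two -/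
noncomputable def badE (X c q v u : ℕ) : ℕ :=
  Nat.add (Nat.add (Nat.add (shErr v) (shErr u)) (Nat.xor (ap1 X v) v))
    (Nat.add (Nat.add (Nat.xor (pwG c q) gone) (Nat.xor (Nat.mod q 2) 1))
      (isZ (Nat.xor (Nat.mod (dd u (ap1 c v)) 16) (Nat.mod (dd u v) 16))))

theorem Let.bad (h : Let cs t) (hX : gc b = X) (q v u : ℕ)
    (e : Nat.add (rgE cs w) (force (evc cs w) fun c => badE X c q v u) = 0) :
    Bad b (ev (bar t) w) := by
  obtain ⟨h1, e⟩ := add_eq_zero_iff'.1 e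
  rw [force_eq, ← h w (lt_of_rgE h1), ← hX] at e
  obtain ⟨⟨⟨h2, h5⟩, h4⟩, ⟨h3, h7⟩, h6⟩ := add_eq_zero_iff'.1 e |>.imp (fun h =>
    (add_eq_zero_iff'.1 h).imp_left add_eq_zero_iff'.1) fun h =>
      (add_eq_zero_iff'.1 h).imp_left add_eq_zero_iff'.1
  obtain ⟨v, hv, rfl⟩ := exists_of_shErr h2
  obtain ⟨u, hu, rfl⟩ := exists_of_shErr h5
  refine ⟨_, (ev_bar w).symm, (Nat.odd_iff.2 (xor_eq_zero' h7)).of_dvd_nat
    (orderOf_dvd_of_pow_eq_one (Subtype.ext (gc_injective ?_))), v,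
    smul_eq_of_ap1 rfl hv hv.bd (xor_eq_zero' h4), fun ⟨y, hy⟩ => Golay.isZ_eq_zero_iff.1 h6 ?_⟩
  · rw [SubgroupClass.coe_pow, ← pwG_gc, xor_eq_zero' h3]; exact gc_one.symm
  · have h8 := dd_cast hu (hv.smul (ev t w).1)
    have h9 := dd_cast hu hv
    obtain ⟨k, hk⟩ := eight_dvd_dot u.2 y.2
    rw [sub_eq_iff_eq_add.1 hy, AddSubgroup.coe_add, two_smul, AddSubgroup.coe_add, dot_add_right,
      dot_add_right, hk, ← two_smul ℕ, ← sub_eq_iff_eq_add.1 hy] at h8
    rw [Golay.xor_eq_zero_iff', show ap1 _ (cd v) = cd _ from ap1_gc _ hv]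
    change _ % 16 = _ % 16
    omega

theorem card_KB (hp : Odd p) (hb : orderOf b = p) {n : ℕ}
    (hc : Nat.card (centralizer ({b} : Set Co0)) ≤ n * (p * 2)) : Nat.card (KB b) ≤ n := by
  rw [card_eq_card_quotient_mul_card_subgroup (NB b), card_NB hp hb] at hc
  exact Nat.le_of_mul_le_mul_right hc (by have := hp.pos; omega)

theorem Bad.ne (hp : Odd p) (hb : b ^ p = 1) {k : KB b} (h : Bad b k) : k ≠ 1 := fun e =>
  h.not_two hp hb IsPGroup.of_bot (mem_bot.2 e)

theorem bij_of_simple {T K : Type*} [Group T] [Group K] [Finite K] [IsSimpleGroup T] (ψ : T →* K)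
    {x : T} (hx : ψ x ≠ 1) (hc : Nat.card K ≤ Nat.card T) : Function.Bijective ψ :=
  have h := (MonoidHom.ker_eq_bot_iff ψ).1 ((ψ.normal_ker.eq_bot_or_eq_top).resolve_right
    fun e => hx (show x ∈ ψ.ker from e ▸ mem_top x))
  h.bijective_of_nat_card_le hc

theorem kb_simple {T : Type*} [Group T] [IsSimpleGroup T] (hp : Odd p) (hb : orderOf b = p)
    (ψ : T →* KB b) {x : T} (hx : Bad b (ψ x))
    (hc : Nat.card (centralizer ({b} : Set Co0)) ≤ Nat.card T * (p * 2)) :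
    Nonempty (KB b ≃* T) ∧ ∀ N : Subgroup (KB b), N.Normal → N ≠ ⊥ → ∃ k ∈ N, Bad b k := by
  let e := MulEquiv.ofBijective ψ (bij_of_simple ψ (hx.ne hp (hb ▸ pow_orderOf_eq_one b))
    (card_KB hp hb hc))
  have := e.symm.isSimpleGroup
  exact ⟨⟨e.symm⟩, fun N hN h => ⟨_, (hN.eq_bot_or_eq_top.resolve_left h) ▸ mem_top _, hx⟩⟩

theorem exists_alt {K : Type*} [Group K] (n : ℕ) (s : ℕ → K) (h3 : ∀ i < n, ev s [i, i, i] = 1)
    (h2 : ∀ i < n, ∀ j < n, i ≠ j → ev s [i, j, i, j] = 1) :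
    ∃ ψ : alternatingGroup (Fin n ⊕ Bool) →* K, ∀ i, ψ (Pres.cy i) = s i :=
  Pres.exists_hom_cy _ (fun i => by simpa [pow_succ, mul_assoc] using h3 i i.2) fun i j h => by
    simpa [pow_succ, mul_assoc] using h2 i i.2 j j.2 (Fin.val_injective.ne h)

end Cfsg.Agent.MT
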