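import Cfsg.Agent.MT.Std

/-! The layer of the centralizer of an element of odd order, and inverting involutions. -/

set_option autoImplicit false
set_option linter.unusedSectionVars false
set_option linter.dupNamespace false

namespace Cfsg.Agent.MT

open Cfsg Subgroup LocalEven Fischer PLocal Leech
open scoped commutatorElement

theorem mem_layer {Y C : Type*} [Group Y] [Group C] [Finite C] (f : C →* Y)
    (hsur : Function.Surjective f) {p : ℕ} (hp : Odd p)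
    (hk : ∀ c, f c = 1 → c ^ p = 1 ∧ ∀ d, Commute c d) {M : Subgroup Y} [M.Normal]
    (hs : IsSimpleGroup M) (hna : ¬ IsMulCommutative M) {x : C} (hx : f x ∈ M) (h2 : x * x = 1) :
    x ∈ layer C := by
  have hq := Comp2.quasisimple_of_isSimpleGroup hna
  set K := ⁅M.comap f, M.comap f⁆ with hK
  have h1 : K.map f = M := by
    rw [map_commutator, map_comap_eq_self_of_surjective hsur, Comp2.quasisimple_commutator_self hq]
  have h3 : ∀ a ∈ M.comap f, ∃ k ∈ K, ∃ c, f c = 1 ∧ a = k * c := fun a ha => by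
    obtain ⟨k, hk, e⟩ := h1.ge ha
    exact ⟨k, hk, k⁻¹ * a, by rw [map_mul, map_inv, e, inv_mul_cancel], by group⟩
  have h4 : ⁅K, K⁆ = K := le_antisymm (commutator_le_left _ _) (commutator_le.2 fun a ha b hb => by
    obtain ⟨k, hk1, c, hc, rfl⟩ := h3 a ha
    obtain ⟨l, hl, d, hd, rfl⟩ := h3 b hb
    have e1 := fun y => Inv.commute_iff_conj.1 ((hk c hc).2 y)
    have e2 := fun y => Inv.commute_iff_conj.1 ((hk d hd).2 y)
    have : ⁅k * c, l * d⁆ = ⁅k, l⁆ := by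
      rw [commutatorElement_def, commutatorElement_def,
        show k * c * (l * d) * (k * c)⁻¹ * (l * d)⁻¹ = k * (c * (l * d) * c⁻¹) * k⁻¹ * (l * d)⁻¹ by
          group, e1, show k * (l * d) * k⁻¹ * (l * d)⁻¹ = k * l * (d * k⁻¹ * d⁻¹) * l⁻¹ by group, e2]
    exact this ▸ commutator_mem_commutator hk1 hl)
  obtain ⟨k, hk', c, hc, rfl⟩ := h3 x hx
  refine Comp2.component_le_layer ⟨(inferInstance : K.Normal).isSubnormal,
    Comp2.quasisimple_of_map f h4 (fun a ha d _ => ((hk a ha.1).2 d).symm.eq) (h1 ▸ hq)⟩ ?_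
  obtain ⟨n, hn⟩ := hp
  have : (k * c) ^ p = k * c := by rw [hn, pow_succ, pow_mul, pow_two, h2, one_pow, one_mul]
  rw [← this, ((hk c hc).2 k).symm.mul_pow, (hk c hc).1, mul_one]
  exact pow_mem hk' p

theorem conj_mem_layer {G : Type*} [Group G] {H : Subgroup G} {t x : G} (ht : t ∈ normalizer (H : Set G))
    (hx : x ∈ (layer H).map H.subtype) : t * x * t⁻¹ ∈ (layer H).map H.subtype := by
  obtain ⟨y, hy, rfl⟩ := hx
  exact ⟨_, (Comp2.layer_map_equiv (H.normalizerMonoidHom ⟨t, ht⟩)).le ⟨y, hy, rfl⟩, rfl⟩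

variable {G : Type*} [Group G] [Finite G] {Q : Subgroup G} {z s t : G}
  {R : leechLattice → G → Prop} {φ : centralizer ({z} : Set G) →* Spor.Co1}
  {v w : leechLattice} {x y a β : G} {g b : Co0} {p : ℕ}

theorem MT.conj_layer (h : MT z Q R φ) (o : OD φ β b p) {w : ℕ}
    (hw : Module.finrank ℤ (Fix b) = 2 * w)
    (hbad : ∀ T : Subgroup (KB b), T.Normal → T ≠ ⊥ → ∃ k ∈ T, Bad b k)
    (hs : s ∈ Q ∧ Commute s β ∧ IsConj z s) (ht : t ∈ Q ∧ Commute t β ∧ IsConj z t)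
    (hst : ¬ Commute s t) (hx : x ∈ Q ∧ Commute x β ∧ IsConj z x) :
    x ∈ (layer (centralizer (zpowers β : Set G))).map (Subgroup.subtype _) := by
  have hc : ∀ c : centralizer (zpowers β : Set G), (c : G) ∈ zpowers β → ∀ d, Commute c d :=
    fun c hc d => Subtype.ext (d.2 c hc)
  have hn : ((zpowers β).subgroupOf (centralizer (zpowers β : Set G))).Normal :=
    ⟨fun n hn g => by rwa [Inv.commute_iff_conj.1 (hc n hn g).symm]⟩
  obtain ⟨hz, Q0, -, -, hN, hS, -⟩ := h.odd_type o hs.1 hs.2.2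
    (fun e => hst (e ▸ h.es.central t ht.1)) hs.2.1 hw hbad _ rfl
  set f := QuotientGroup.mk' ((zpowers β).subgroupOf (centralizer (zpowers β : Set G)))
  have hk : ∀ a, f a = 1 ↔ (a : G) ∈ zpowers β := fun a => QuotientGroup.eq_one_iff a
  have hM : ∀ x (hx : x ∈ Q ∧ Commute x β ∧ IsConj z x),
      f ⟨x, mem_cz.2 hx.2.1⟩ ∈ normalClosure {f ⟨z, hz⟩} := fun x hx => by
    by_cases e : x = z
    · subst e; exact subset_normalClosure rfl
    obtain ⟨k, rfl⟩ := isConj_iff.1 hx.2.2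
    obtain ⟨y, hy, y', hy', -, -, e2⟩ := pr_fix (h.pr hx.1 e).1 o.oddA hz (mem_cz.2 hx.2.1)
    have := Normal.conj_mem inferInstance _ (subset_normalClosure (s := {f ⟨z, hz⟩}) rfl)
      (f ⟨_, mul_mem (mul_mem hy'.2 hy.2) hy'.2⟩)
    rwa [← map_inv, ← map_mul, ← map_mul, show (_ * _ * _ : centralizer (zpowers β : Set G)) =
      ⟨_, mem_cz.2 hx.2.1⟩ from Subtype.ext e2] at this
  obtain ⟨hL, -, -, k, g1, g2⟩ := ls_of_setting hS
  have hO := (ls_of_genFit hS.1 (by rw [hS.2.1]) hL.toES.isExtraspecial).2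
  rcases large_structure hL (hL.large_of_conj g1 g2).2.2.2 rfl with h1 | h1 |
    ⟨-, L, u, -, -, -, -, -, -, -, -, -, -, h1⟩
  · refine (hst (eq_one_of_odd_pow o.oddA (mem_cz.2 ht.2.1) (es_pow_four h.es ht.1)
      ((hk (⟨s, mem_cz.2 hs.2.1⟩ * ⟨t, mem_cz.2 ht.2.1⟩ * ⟨s, mem_cz.2 hs.2.1⟩⁻¹ *
        ⟨t, mem_cz.2 ht.2.1⟩⁻¹)).1 ?_))).elim
    have : Commute (f _) (f _) :=
      congrArg Subtype.val (h1.1.is_comm.comm ⟨_, hM s hs⟩ ⟨_, hM t ht⟩)
    rw [map_mul, map_mul, map_mul, map_inv, map_inv, Inv.commute_iff_conj.1 this, mul_inv_cancel]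
  · obtain ⟨k, hk'⟩ := isConj_iff.1 hx.2.2
    refine ⟨_, mem_layer f (QuotientGroup.mk'_surjective _) o.odd (fun c e => ⟨Subtype.ext ?_,
      hc c ((hk c).1 e)⟩) h1.2.1 h1.2.2 (hM x hx) (Subtype.ext ?_), rfl⟩
    · obtain ⟨i, hi⟩ := (hk c).1 e
      rw [SubgroupClass.coe_pow, ← show β ^ i = c from hi, ← zpow_natCast, ← zpow_mul, mul_comm,
        zpow_mul, zpow_natCast, o.p1, one_zpow]; rfl
    · change x * x = 1
      rw [← hk', conj_mul, h.es.zsq]; simp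
  · exact (h1 hO).elim

theorem MT.invol_sign (h : MT z Q R φ) {c d D : Finset GolayPt} (hc : Cw c) (hd : Cw d) (hD : Cw D)
    (hn : sqNorm ((signCo D hD • (signCo d hd • tw c hc - tw c hc) -
      (signCo d hd • tw c hc - tw c hc) : leechLattice) : V) = 64) :
    ∃ a, PP φ a (signCo D hD) ∧ a * a = 1 := by
  obtain ⟨s, hs⟩ := h.ex (e8 none)
  obtain ⟨k, rfl⟩ := isConj_iff.1 (h.isConj64 hs (e8_norm _))
  obtain ⟨hp, hq⟩ := h.pr (h.mem hs) (h.ne64 hs (e8_norm _)).2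
  obtain ⟨a, ha, ha'⟩ := mem_img.1 ((h.img_eq hp hq hs).ge (sign_mem_Sg hd))
  obtain ⟨e, he, he'⟩ := mem_img.1 ((h.img_eq hp hq hs).ge (sign_mem_Sg hD))
  obtain ⟨q, hq⟩ := h.ex (tw c hc)
  have h4 : Commute q (k * z * k⁻¹) := (h.comm_iff hq hs).2 (by
    rw [dot_e8, tw_apply]; split_ifs <;> decide)
  have h5 := h.cong (h.add (h.act' ha' hq) (h.r_inv hq)) (cong_sub _ _)
  have h6 : a * q * a⁻¹ * q⁻¹ ∈ cj k Q := by
    rw [show a * q * a⁻¹ * q⁻¹ = a * (q * a⁻¹ * q⁻¹) by group]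
    exact mul_mem ha.1 (hp.r.norm q h4 _ (inv_mem ha.1))
  have h7 : ¬ Commute e (a * q * a⁻¹ * q⁻¹) := fun h8 => by
    obtain ⟨u, hu⟩ : Cong _ _ := h.pp_St h5 he' h8
    rcases Cong.short (y := 0) ⟨u, (sub_zero _).trans hu⟩ hn.le (by simp [sqNorm_zero]) with
      e1 | e1 | e1
    · rw [e1] at hn; simp [sqNorm_zero] at hn
    · rw [e1] at hn; simp [sqNorm_zero] at hn
    · simp [sqNorm_zero] at e1
  by_cases h8 : e * e = 1
  · exact ⟨e, he', h8⟩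
  · exact ⟨_, by simpa using he'.mul (h.pp_Q (h.mem h5)), (es_sq_mul hp.r.toES he.1 h6).2
      (by simp [h8, h7, hp.E_sq ⟨h.mem h5, h6⟩])⟩

theorem OD.pow (o : OD φ β b p) {k : ℕ} (hk : p.Coprime k) : OD φ (β ^ k) (b ^ k) p :=
  ⟨o.pp.pow k, o.odd, (Nat.Coprime.orderOf_pow (by rwa [o.o1])).trans o.o1,
    (Nat.Coprime.orderOf_pow (by rwa [o.o2])).trans o.o2⟩

theorem MT.lift_pow (h : MT z Q R φ) (o : OD φ β b p) {k : ℕ} (hk : p.Coprime k)
    (e : g * b * g⁻¹ = b ^ k) : ∃ a, PP φ a g ∧ a * β * a⁻¹ = β ^ k := by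
  obtain ⟨a, ha⟩ := h.exists_lift g
  obtain ⟨n, hn, e⟩ := h.odd_conj (o.pow hk) ((e.trans (pow_one _).symm) ▸ ha.conj o.pp)
    (by rw [conj_pow, o.p1]; simp)
  exact ⟨n * a, by simpa using (h.pp_Q hn).mul ha, by rw [← e]; group⟩

theorem MT.lift_inv (h : MT z Q R φ) (o : OD φ β b 7) (ha : PP φ a g) (h2 : a * a = 1)
    (e : g * b * g⁻¹ = b ^ 6) : ∃ t, t * t = 1 ∧ PP φ t g ∧ t * β * t⁻¹ = β ^ 6 := by
  have h6 : β⁻¹ = β ^ 6 := inv_eq_of_mul_eq_one_right ((pow_succ' β 6).symm.trans o.p1)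
  have h7 : b⁻¹ = b ^ 6 := inv_eq_of_mul_eq_one_right ((pow_succ' b 6).symm.trans o.p2)
  have h1 : PP φ (a * β * a⁻¹ * β⁻¹) (b ^ 12) := by
    have := (ha.conj o.pp).mul o.pp.inv
    rwa [e, h7, ← pow_add] at this
  set c := a * β * a⁻¹ * β⁻¹ with hc
  have h3 : a * c * a⁻¹ = c⁻¹ := by
    rw [hc, show a * (a * β * a⁻¹ * β⁻¹) * a⁻¹ = a * a * β * (a * a)⁻¹ * a * β⁻¹ * a⁻¹ by group, h2]
    group
  have h4 : c ^ 7 ∈ Q := (h.pp_iff (h1.pow 7)).2 (Or.inl (by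
    rw [← pow_mul, mul_comm, pow_mul, o.p2, one_pow]))
  obtain ⟨n, hn, e1⟩ := h.odd_conj (o.pow (k := 6) (by norm_num)) (a := c ^ 4) (by
    have := h1.pow 4
    rwa [← pow_mul, show 12 * 4 = 7 * 6 + 6 * 1 from rfl, pow_add, pow_mul, o.p2, one_pow, one_mul,
      pow_mul] at this) (by rw [← pow_mul, mul_comm, pow_mul, es_pow_four h.es h4])
  refine ⟨n * a * n⁻¹, by rw [conj_mul, h2]; simp, by simpa using (h.pp_Q hn).conj ha, ?_⟩
  have e2 : β = (n * c ^ 4 * n⁻¹)⁻¹ := by rw [e1, ← h6, inv_inv]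
  have e3 : a * c ^ 4 * a⁻¹ = (c ^ 4)⁻¹ := by rw [← conj_pow, h3, inv_pow]
  rw [← e1]
  generalize c ^ 4 = y at e2 e3
  rw [e2, show n * a * n⁻¹ * (n * y * n⁻¹)⁻¹ * (n * a * n⁻¹)⁻¹ = n * (a * y * a⁻¹)⁻¹ * n⁻¹ by group,
    e3, inv_inv]

end Cfsg.Agent.MT
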