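import Mathlib
import Cfsg.Agent.MT.Baby

/-! Centralizers of elements of odd order in a group of Monster type. -/

set_option autoImplicit false
set_option linter.unusedSectionVars false
set_option linter.dupNamespace false

namespace Cfsg.Agent.MT

open Cfsg Subgroup LocalEven Fischer PLocal Leech

variable {G : Type*} [Group G] [Finite G] {Q Q' : Subgroup G} {z s : G}

theorem neg_comm (g : Co0) : Commute negCo g := (mem_center_iff.1 negCo_central g).symm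

theorem neg_pow_odd {p : ℕ} (hp : Odd p) : negCo ^ p = negCo := by
  obtain ⟨k, rfl⟩ := hp
  rw [pow_succ, pow_mul, pow_two, negCo_sq, one_pow, one_mul]

theorem ne_neg {g k : Co0} {p : ℕ} (hp : Odd p) (h1 : g ^ p = 1) (h2 : k ^ p = 1) :
    g ≠ k * negCo := fun e => by
  rw [e, (neg_comm k).symm.mul_pow, h2, one_mul, neg_pow_odd hp] at h1
  exact negCo_ne_one h1

/-- The group generated by `-1` and `b`. -/
noncomputable def NB (b : Co0) : Subgroup (centralizer ({b} : Set Co0)) :=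
  (zpowers (b * negCo)).subgroupOf _

instance nb_normal (b : Co0) : (NB b).Normal := ⟨fun n hn g => by
  have : Commute (g : Co0) n := Inv.commute_of_mem_zpowers
    ((Inv.mem_centralizer_single.1 g.2).mul_right (neg_comm _).symm).symm hn |>.symm
  rwa [show g * n * g⁻¹ = n from Subtype.ext (Inv.commute_iff_conj.1 this)]⟩

theorem mem_NB {b : Co0} {p : ℕ} (hp : Odd p) (hb : b ^ p = 1) {g : centralizer ({b} : Set Co0)} :
    g ∈ NB b ↔ ∃ i : ℕ, (g : Co0) = b ^ i ∨ (g : Co0) = b ^ i * negCo := by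
  have h1 : negCo ∈ zpowers (b * negCo) := ⟨(p : ℕ), by
    simp only [zpow_natCast]; rw [(neg_comm b).symm.mul_pow, hb, one_mul, neg_pow_odd hp]⟩
  have h2 : b ∈ zpowers (b * negCo) := (mul_mem_cancel_right h1).1 (mem_zpowers _)
  refine ⟨fun h => ?_, ?_⟩
  · obtain ⟨i, hi⟩ := mem_powers_iff_mem_zpowers.2 h
    refine ⟨i, ?_⟩
    rw [show (g : Co0) = (b * negCo) ^ i from hi.symm, (neg_comm b).symm.mul_pow]
    exact ((Leech.mem_center_iff _).1 (pow_mem negCo_central i)).imp (fun e => by rw [e, mul_one])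
      fun e => by rw [e]
  · rintro ⟨i, e | e⟩ <;> rw [NB, mem_subgroupOf, e]
    exacts [pow_mem h2 i, mul_mem (pow_mem h2 i) h1]

theorem card_NB {b : Co0} {p : ℕ} (hp : Odd p) (hb : orderOf b = p) : Nat.card (NB b) = p * 2 := by
  rw [NB, card_subgroupOf (zpowers_le.2 (Inv.mem_centralizer_single.2
    ((Commute.refl b).mul_left (neg_comm b)))), Nat.card_zpowers,
    (neg_comm b).symm.orderOf_mul_eq_mul_orderOf_of_coprime] <;>
    rw [hb, Inv.two_of_mul_self negCo_ne_one negCo_sq]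
  exact Nat.coprime_two_right.2 hp

/-- The centralizer of `b` modulo `-1` and `b`. -/
abbrev KB (b : Co0) : Type := centralizer ({b} : Set Co0) ⧸ NB b

/-- Classes of elements of odd order moving a fixed vector modulo `2`. -/
def Bad (b : Co0) (k : KB b) : Prop := ∃ g : centralizer ({b} : Set Co0), QuotientGroup.mk g = k ∧
  Odd (orderOf g) ∧ ∃ v : leechLattice, b • v = v ∧ ¬ Cong ((g : Co0) • v) v

theorem Bad.not_two {b : Co0} {p : ℕ} (hp : Odd p) (hb : b ^ p = 1) {k : KB b} (h : Bad b k)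
    {T : Subgroup (KB b)} (hT : IsPGroup 2 T) : k ∉ T := fun hk => by
  obtain ⟨g, rfl, h1, v, h2, h3⟩ := h
  have := Inv.eq_one_of_odd_of_mem_two_group hT hk
    (h1.of_dvd_nat (orderOf_map_dvd (QuotientGroup.mk' _) g))
  have h4 : ∀ i : ℕ, b ^ i • v = v := fun i => pow_mem (MulAction.mem_stabilizer_iff.2 h2) i
  obtain ⟨i, e | e⟩ := (mem_NB hp hb).1 ((QuotientGroup.eq_one_iff g).1 this) <;> refine h3 ?_ <;>
    rw [e]
  · rw [h4]; exact Cong.refl v
  · rw [mul_smul, negCo_smul, smul_neg, h4]; exact (cong_neg v).symm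

theorem mem_cz {β c : G} : c ∈ centralizer (zpowers β : Set G) ↔ Commute c β :=
  ⟨fun h => (h β (mem_zpowers β)).symm, fun h _ ha => (Inv.commute_of_mem_zpowers h.symm ha).eq⟩

theorem pr_fix (hp : Pr Q Q' z s) {A : Subgroup G} (hA : Odd (Nat.card A))
    (hz : z ∈ centralizer (A : Set G)) (hs : s ∈ centralizer (A : Set G)) :
    ∃ y ∈ Q ⊓ centralizer (A : Set G), ∃ y' ∈ Q' ⊓ centralizer (A : Set G),
      y * s * y⁻¹ = s * z ∧ y' * z * y'⁻¹ = z * s ∧ y' * y * y' * z * (y' * y * y')⁻¹ = s := by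
  obtain ⟨y, hy, hys⟩ := es_fix hp.l.toES (fun a ha => hp.l.mem_normalizer (hz a ha)) hA
    ⟨hp.hs, hs⟩ hp.r.ne hp.ne
  obtain ⟨y', hy', hyz⟩ := es_fix hp.r.toES (fun a ha => hp.r.mem_normalizer (hs a ha)) hA
    ⟨hp.hz, hz⟩ hp.l.ne hp.ne.symm
  exact ⟨y, hy, y', hy', hys, hyz, (conj_swap hp.l.zsq hp.r.zsq hp.comm
    (Inv.commute_iff_conj.1 (hp.l.central y hy.1).symm) hys hyz
    (Inv.commute_iff_conj.1 (hp.r.central y' hy'.1).symm)).1⟩

/-- The vectors fixed by `b`. -/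
def Fix (b : Co0) : Submodule ℤ leechLattice where
  carrier := {v | b • v = v}
  add_mem' := fun {v w} hv hw => by
    change b • (v + w) = _
    rw [smul_add, hv, hw]
  zero_mem' := smul_zero b
  smul_mem' := fun a v hv => by
    change b • (a • v) = _
    rw [smul_zsmul, hv]

theorem finrank_fix (σ : M24) {n : ℕ} (ω : GolayPt → Fin n) (ρ : Fin n → GolayPt)
    (h1 : ∀ j, ω (ρ j) = j) (h2 : ∀ i, ω (σ.1 i) = ω i) (m : ℕ)
    (h3 : ∀ i, ∃ k < m, (σ.1 ^ k) (ρ (ω i)) = i) : Module.finrank ℤ (Fix (permHom σ)) = n := by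
  let f : (Fin n → ℤ) →ₗ[ℤ] Fix (permHom σ) :=
    { toFun := fun u => ⟨⟨(8 : ℤ) • (u ∘ ω), eight_smul_mem _⟩, Subtype.ext (funext fun i => by
        obtain ⟨i, rfl⟩ := σ.1.surjective i
        exact (permCo_apply' σ _ i).trans (congrArg (fun j => 8 * u j) (h2 i).symm))⟩
      map_add' := fun u v => Subtype.ext (Subtype.ext (smul_add _ _ _))
      map_smul' := fun a u => Subtype.ext (Subtype.ext (smul_comm (8 : ℤ) a (u ∘ ω))) }
  let g : Fix (permHom σ) →ₗ[ℤ] (Fin n → ℤ) :=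
    { toFun := fun v j => (v.1 : V) (ρ j)
      map_add' := fun _ _ => rfl
      map_smul' := fun _ _ => rfl }
  have e1 := LinearMap.finrank_le_finrank_of_injective (f := f) fun u v e => funext fun j => by
    have : 8 * u (ω (ρ j)) = 8 * v (ω (ρ j)) := congrArg (fun x : Fix _ => (x.1 : V) (ρ j)) e
    rw [h1] at this; omega
  have e2 := LinearMap.finrank_le_finrank_of_injective (f := g) fun u v e => by
    have key : ∀ (u : Fix (permHom σ)) (k : ℕ) i, (u.1 : V) ((σ.1 ^ k) i) = (u.1 : V) i :=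
      fun u k => by
        induction k with
        | zero => exact fun i => rfl
        | succ k ih =>
          intro i
          rw [pow_succ', Equiv.Perm.mul_apply, ← ih i, ← permCo_apply' σ u.1 ((σ.1 ^ k) i)]
          exact (congrArg (fun x : leechLattice => (x : V) (σ.1 ((σ.1 ^ k) i))) u.2).symm
    refine Subtype.ext (Subtype.ext (funext fun i => ?_))
    obtain ⟨k, -, hk⟩ := h3 i
    rw [← hk, key, key]
    exact congrFun e (ω i)
  rw [Module.finrank_fin_fun] at e1 e2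
  exact le_antisymm e2 e1

/-- `β` has odd order `p` and induces `b`. -/
structure OD (φ : centralizer ({z} : Set G) →* Spor.Co1) (β : G) (b : Co0) (p : ℕ) : Prop where
  pp : PP φ β b
  odd : Odd p
  o1 : orderOf β = p
  o2 : orderOf b = p

namespace OD
variable {φ : centralizer ({z} : Set G) →* Spor.Co1} {β a : G} {b g : Co0} {p : ℕ}
  (o : OD φ β b p)
include o

theorem p1 : β ^ p = 1 := o.o1 ▸ pow_orderOf_eq_one β
theorem p2 : b ^ p = 1 := o.o2 ▸ pow_orderOf_eq_one b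
theorem oddA : Odd (Nat.card (zpowers β)) := by rw [Nat.card_zpowers, o.o1]; exact o.odd

theorem conj (ha : PP φ a g) {k : ℕ} (e : a * β * a⁻¹ = β ^ k) : g * b * g⁻¹ = b ^ k :=
  ((o.pp.pow k).eq_or (e ▸ ha.conj o.pp)).resolve_right (ne_neg o.odd
    (by rw [conj_pow, o.p2]; simp) (by rw [← pow_mul, mul_comm, pow_mul, o.p2, one_pow]))

theorem cent (ha : PP φ a g) (e : Commute a β) : g ∈ centralizer ({b} : Set Co0) :=
  Inv.mem_centralizer_single.2 (Inv.commute_iff_conj.2 (by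
    simpa using o.conj ha (k := 1) (by simpa using Inv.commute_iff_conj.1 e)))

end OD

namespace MT

variable {R : leechLattice → G → Prop} {φ : centralizer ({z} : Set G) →* Spor.Co1}
  (h : MT z Q R φ) {v w : leechLattice} {x y a β : G} {g b : Co0} {p : ℕ}
include h

theorem mem_Q (ha : PP φ a g) (hx : PP φ x g) : a * x⁻¹ ∈ Q :=
  (h.pp_iff (ha.mul hx.inv)).2 (Or.inl (mul_inv_cancel g))

theorem exists_od (hz : Commute β z) (hp : p.Prime) (ho : Odd p) (hβ : orderOf β = p) :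
    ∃ b, OD φ β b p := by
  have key : ∀ b, PP φ β b → b ^ p = 1 → OD φ β b p := fun b h1 h2 => ⟨h1, ho, hβ, by
    have := Fact.mk hp
    refine orderOf_eq_prime h2 fun e => ?_
    have := Inv.eq_one_of_odd_of_mem_two_group h.es.isPGroup ((h.pp_iff h1).2 (Or.inl e)) (hβ ▸ ho)
    rw [this, orderOf_one] at hβ
    exact hp.one_lt.ne hβ⟩
  obtain ⟨g, hg⟩ := exists_pp φ hz
  have := hg.pow p
  rw [← hβ, pow_orderOf_eq_one, hβ] at this
  rcases (h.pp_iff this).1 (one_mem Q) with e | e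
  · exact ⟨g, key g hg e⟩
  · exact ⟨_, key _ hg.neg (by rw [(neg_comm g).symm.mul_pow, e, neg_pow_odd ho, negCo_sq])⟩

theorem odd_conj (o : OD φ β b p) (ha : PP φ a (b ^ 1)) (h1 : a ^ p = 1) :
    ∃ n ∈ Q, n * a * n⁻¹ = β := by
  have := h.es.isPGroup.isNilpotent
  have := Fact.mk Nat.prime_two
  obtain ⟨n, hn, e⟩ := Core.exists_conj_le_of_le_sup Q (zpowers a) (zpowers β)
    (zpowers_le.2 (h.ls.mem_normalizer ha.comm)) (zpowers_le.2 (h.ls.mem_normalizer o.pp.comm))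
    (by
      rw [h.card, Nat.card_zpowers]
      exact (Nat.coprime_two_right.2 (o.odd.of_dvd_nat (orderOf_dvd_of_pow_eq_one h1))).pow_right _)
    (Or.inr inferInstance) (zpowers_le.2 (by
      simpa using mul_mem_sup (h.mem_Q ha (o.pp.pow 1)) (mem_zpowers β)))
  obtain ⟨j, hj⟩ := mem_powers_iff_mem_zpowers.2
    (Core.conj_smul_le_iff.1 e a (mem_zpowers a))
  have h2 : PP φ (β ^ j) (b ^ 1) := by
    simpa [show β ^ j = n * a * n⁻¹ from hj] using (h.pp_Q hn).conj ha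
  have h3 := (h2.eq_or (o.pp.pow j)).resolve_right (ne_neg o.odd
    (by rw [← pow_mul, mul_comm, pow_mul, o.p2, one_pow]) (by simpa using o.p2))
  rw [pow_eq_pow_iff_modEq, o.o2, ← o.o1, ← pow_eq_pow_iff_modEq, pow_one] at h3
  exact ⟨n, hn, hj.symm.trans h3⟩

theorem lift_conj (o : OD φ β b p) (e : g * b * g⁻¹ = b ^ 1) : ∃ a, PP φ a g ∧ Commute a β := by
  obtain ⟨a, ha⟩ := h.exists_lift g
  obtain ⟨n, hn, e⟩ := h.odd_conj o (e ▸ ha.conj o.pp) (by rw [conj_pow, o.p1]; simp)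
  exact ⟨n * a, by simpa using (h.pp_Q hn).mul ha, Inv.commute_iff_conj.2 (by
    rw [← e]; nth_rewrite 2 [← e]; group)⟩

theorem fix_comm (o : OD φ β b p) (hv : b • v = v) (hx : R v x) : Commute x β := by
  have h1 := h.act' o.pp hx
  rw [hv] at h1
  refine (Inv.commute_iff_conj.2 (((h.iff hx h1).1 (Cong.refl v)).resolve_right fun e => ?_)).symm
  have h2 : ∀ n : ℕ, β ^ n * x * (β ^ n)⁻¹ = x * z ^ n := fun n => by
    induction n with
    | zero => simp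
    | succ n ih =>
      rw [pow_succ', show β * β ^ n * x * (β * β ^ n)⁻¹ = β * (β ^ n * x * (β ^ n)⁻¹) * β⁻¹ by group,
        ih, show β * (x * z ^ n) * β⁻¹ = β * x * β⁻¹ * (β * z ^ n * β⁻¹) by group, e,
        Inv.commute_iff_conj.1 (o.pp.comm.pow_right n), pow_succ', mul_assoc]
  obtain ⟨k, hk⟩ := o.odd
  have := h2 p
  rw [o.p1, hk, pow_succ, pow_mul, pow_two, h.es.zsq] at this
  exact h.es.ne (by simpa using this)

theorem exists_fix (o : OD φ β b p) (hx : x ∈ Q) (hc : Commute x β) : ∃ v, b • v = v ∧ R v x := by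
  obtain ⟨v, hv⟩ := h.surj x hx
  have h1 : ∀ n : ℕ, Cong v (b ^ n • v) := fun n => (h.iff hv (h.act' (o.pp.pow n) hv)).2
    (Or.inl (Inv.commute_iff_conj.1 (hc.symm.pow_left n)))
  have h2 : ∀ n : ℕ, Cong (n • v) (∑ i ∈ Finset.range n, b ^ i • v) := fun n => by
    induction n with
    | zero => simpa using Cong.refl 0
    | succ n ih => rw [Finset.sum_range_succ, succ_nsmul]; exact ih.add (h1 n)
  refine ⟨∑ i ∈ Finset.range p, b ^ i • v, ?_, h.cong hv (Cong.trans ?_ (h2 p))⟩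
  · have := (Finset.sum_range_succ' (fun i => b ^ i • v) p).symm.trans
      (Finset.sum_range_succ (fun i => b ^ i • v) p)
    rw [o.p2, pow_zero, add_left_inj] at this
    rw [Finset.smul_sum, ← this]
    exact Finset.sum_congr rfl fun i _ => by rw [pow_succ', mul_smul]
  · obtain ⟨k, hk⟩ := o.odd
    exact Cong.symm ⟨k • v, by rw [hk, succ_nsmul, add_sub_cancel_right, mul_nsmul']⟩

theorem card_fix (o : OD φ β b p) : Nat.card (Q ⊓ centralizer (zpowers β : Set G) : Subgroup G) =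
    2 ^ (Module.finrank ℤ (Fix b) + 1) := by
  have hz : z ∈ Q ⊓ centralizer (zpowers β : Set G) := ⟨h.es.mem, mem_cz.2 o.pp.comm.symm⟩
  let N := (zpowers z).subgroupOf (Q ⊓ centralizer (zpowers β : Set G))
  have : N.Normal := ⟨fun n hn g => by
    rwa [show g * n * g⁻¹ = n from Subtype.ext (Inv.commute_iff_conj.1
      (Inv.commute_of_mem_zpowers (h.es.central g g.2.1) hn).symm)]⟩
  have hq : ∀ x y : ↥(Q ⊓ centralizer (zpowers β : Set G)), (QuotientGroup.mk x : _ ⧸ N) =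
      QuotientGroup.mk y ↔ (y : G) = x ∨ (y : G) = x * z := fun x y => by
    rw [QuotientGroup.eq, mem_subgroupOf, mem_zpowers_two h.es.zsq]
    simp only [coe_mul, coe_inv, inv_mul_eq_iff_eq_mul, mul_one]
  obtain ⟨e, -⟩ := exists_equiv_of_rel (nsmulAddMonoidHom (α := Fix b) 2).range.toSubgroup
    (fun v (k : _ ⧸ N) => ∃ x, R (Multiplicative.toAdd v).1 x.1 ∧ QuotientGroup.mk x = k)
    (fun _ _ _ _ ⟨x, h1, e1⟩ ⟨y, h2, e2⟩ => ⟨x * y, h.add h1 h2, by rw [← e1, ← e2]; rfl⟩)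
    (fun v => by
      obtain ⟨x, hx⟩ := h.ex (Multiplicative.toAdd v).1
      exact ⟨_, ⟨x, h.mem hx, mem_cz.2 (h.fix_comm o (Multiplicative.toAdd v).2 hx)⟩, hx, rfl⟩)
    (fun k => by
      obtain ⟨x, rfl⟩ := QuotientGroup.mk_surjective k
      obtain ⟨v, h1, h2⟩ := h.exists_fix o x.2.1 (mem_cz.1 x.2.2)
      exact ⟨Multiplicative.ofAdd ⟨v, h1⟩, x, h2, rfl⟩)
    (fun _ _ _ ⟨x, h1, e1⟩ ⟨y, h2, e2⟩ => by
      rw [← e1, ← e2, hq]; exact (h.iff h1 h2).1 (Cong.refl _))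
    (fun v => ⟨fun ⟨x, h1, e1⟩ => by
      obtain ⟨u, hu⟩ := ((h.cong_zero h1).2 (by simpa using (hq 1 x).1 e1.symm)).symm
      rw [sub_zero] at hu
      refine ⟨⟨u, two_smul_inj ?_⟩, Subtype.ext hu.symm⟩
      rw [← smul_add, ← two_nsmul, ← hu]; exact (Multiplicative.toAdd v).2,
      fun ⟨u, hu⟩ => ⟨1, h.cong h.r_one (Cong.symm ⟨u.1, by
        rw [sub_zero]; exact (congrArg Subtype.val hu).symm⟩), rfl⟩⟩)
  rw [← N.index_mul_card, index_eq_card, ← Nat.card_congr e.toEquiv, ← index_eq_card,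
    AddSubgroup.index_toSubgroup, AddSubgroup.index_range_nsmul, card_subgroupOf (zpowers_le.2 hz),
    Nat.card_zpowers, h.es.orderOf, pow_succ]

theorem Q_A (o : OD φ β b p) (hx : x ∈ Q) (h1 : x ∈ zpowers β) : x = 1 :=
  Inv.eq_one_of_odd_of_mem_two_group h.es.isPGroup hx
    (o.oddA.of_dvd_nat ((zpowers β).orderOf_dvd_natCard h1))

theorem odd_type (o : OD φ β b p) (hs : s ∈ Q) (h1 : IsConj z s) (h2 : s ≠ z) (h3 : Commute s β)
    {w : ℕ} (hw : Module.finrank ℤ (Fix b) = 2 * w)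
    (hbad : ∀ T : Subgroup (KB b), T.Normal → T ≠ ⊥ → ∃ k ∈ T, Bad b k)
    [((zpowers β).subgroupOf (centralizer (zpowers β : Set G))).Normal]
    (f : centralizer (zpowers β : Set G) →* _)
    (hf : f = QuotientGroup.mk' ((zpowers β).subgroupOf (centralizer (zpowers β : Set G)))) :
    ∃ (hz : z ∈ centralizer (zpowers β : Set G)) (Q0 : Subgroup _),
      (∀ c, f c ∈ Q0 ↔ ∃ i : ℕ, c * β ^ i ∈ Q) ∧ LS Q0 (f ⟨z, hz⟩) ∧
      ∃ _ : (Q0.subgroupOf (centralizer {f ⟨z, hz⟩})).Normal,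
      IsExtraspecialCentralizerSetting (f ⟨z, hz⟩) (Q0.subgroupOf _) w ∧
      {x : centralizer {f ⟨z, hz⟩} | x ∈ Q0.subgroupOf _ ∧ IsConj (f ⟨z, hz⟩) x}.ncard =
        {x | x ∈ Q ∧ Commute x β ∧ IsConj z x}.ncard ∧
      ∃ e : centralizer {f ⟨z, hz⟩} ⧸ Q0.subgroupOf _ ≃* KB b, ∀ d k, e (QuotientGroup.mk d) = k ↔
        ∃ c g, f c = d ∧ PP φ c g.1 ∧ QuotientGroup.mk g = k := by
  have hz : z ∈ Q ⊓ centralizer (zpowers β : Set G) := ⟨h.es.mem, mem_cz.2 o.pp.comm.symm⟩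
  have hsur : Function.Surjective f := hf ▸ QuotientGroup.mk'_surjective _
  have hk : ∀ a, f a = 1 ↔ (a : G) ∈ zpowers β := fun a => hf ▸ QuotientGroup.eq_one_iff a
  have hβ : ∀ i : ℕ, β ^ i ∈ centralizer (zpowers β : Set G) := fun i =>
    mem_cz.2 ((Commute.refl β).pow_left i)
  have hf' : ∀ a c, f a = f c ↔ ∃ i : ℕ, (c : G) * β ^ i = a := fun a c => by
    rw [eq_comm, ← inv_mul_eq_one, ← map_inv, ← map_mul, hk, ← mem_powers_iff_mem_zpowers]
    exact exists_congr fun i => by simp [eq_inv_mul_iff_mul_eq]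
  have hfc : ∀ c x (hx : x ∈ Q ⊓ centralizer (zpowers β : Set G)), Commute (f c) (f ⟨x, hx.2⟩) →
      Commute (c : G) x := fun c x hx e => eq_one_of_odd_pow o.oddA hx.2 (es_pow_four h.es hx.1)
      ((hk (c * ⟨x, hx.2⟩ * c⁻¹ * ⟨x, hx.2⟩⁻¹)).1 (by
        rw [map_mul, map_mul, map_mul, map_inv, map_inv, Inv.commute_iff_conj.1 e, mul_inv_cancel]))
  have hcz' : ∀ c : centralizer (zpowers β : Set G), Commute (c : G) z →
      f c ∈ centralizer {f ⟨z, hz.2⟩} := fun c e => Inv.mem_centralizer_single.2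
    (Commute.map (show Commute c ⟨z, hz.2⟩ from Subtype.ext e) f)
  have hinj : ∀ a c : centralizer (zpowers β : Set G), (a : G) ∈ Q → (c : G) ∈ Q → f a = f c →
      (a : G) = c := fun a c ha hc e => mul_inv_eq_one.1 (h.Q_A o (mul_mem ha (inv_mem hc))
        ((hk (a * c⁻¹)).1 (by rw [map_mul, map_inv, e, mul_inv_cancel])))
  set Q0 := ((Q ⊓ centralizer (zpowers β : Set G)).subgroupOf _).map f with hQ0
  have hQ : ∀ c, f c ∈ Q0 ↔ ∃ i : ℕ, c * β ^ i ∈ Q := fun c => ⟨fun ⟨q, hq, e⟩ =>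
    ((hf' q c).1 e).imp fun i hi => by rw [hi]; exact hq.1, fun ⟨i, hi⟩ =>
      ⟨c * ⟨_, hβ i⟩, ⟨hi, mul_mem c.2 (hβ i)⟩, (hf' _ _).2 ⟨i, rfl⟩⟩⟩
  have hQ' : ∀ c : centralizer (zpowers β : Set G), (c : G) ∈ Q → f c ∈ Q0 := fun c hc =>
    ⟨c, ⟨hc, c.2⟩, rfl⟩
  have hN : (Q0.subgroupOf (centralizer {f ⟨z, hz.2⟩})).Normal := ⟨fun n hn d => by
    obtain ⟨c, hc⟩ := hsur d
    obtain ⟨q, hq, e⟩ := hn
    rw [mem_subgroupOf, coe_mul, coe_mul, coe_inv, ← hc, show n.1 = f q from e.symm,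
      ← map_inv, ← map_mul, ← map_mul]
    exact hQ' _ (h.ls.norm c (hfc c z hz (hc ▸ Inv.mem_centralizer_single.1 d.2)) q hq.1)⟩
  have hker : ∀ (c : centralizer (zpowers β : Set G)) (g : centralizer ({b} : Set Co0)),
      PP φ c g.1 → (g ∈ NB b ↔ f c ∈ Q0) := fun c g hg => by
    rw [hQ, mem_NB o.odd o.p2]
    have e : ∀ i, b ^ i * b ^ (i * (p - 1)) = 1 := fun i => by
      rw [← pow_add, ← mul_one_add, Nat.add_sub_cancel' (show 1 ≤ p from o.odd.pos), mul_comm,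
        pow_mul, o.p2, one_pow]
    refine ⟨fun ⟨i, hi⟩ => ⟨i * (p - 1), ?_⟩, fun ⟨i, hi⟩ => ⟨i * (p - 1), ?_⟩⟩
    · rw [h.pp_iff (hg.mul (o.pp.pow _))]
      refine hi.imp (fun e1 => by rw [e1, e]) fun e1 => ?_
      rw [e1, mul_assoc, (neg_comm _).eq, ← mul_assoc, e, one_mul]
    · rw [h.pp_iff (hg.mul (o.pp.pow _)), ← eq_mul_inv_iff_mul_eq, ← eq_mul_inv_iff_mul_eq,
        inv_eq_of_mul_eq_one_right (e i), one_mul, (neg_comm _).eq] at hi
      exact hi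
  obtain ⟨e, he⟩ := exists_equiv_of_rel (Q0.subgroupOf (centralizer {f ⟨z, hz.2⟩}))
    (fun d (k : KB b) => ∃ c g, f c = d ∧ PP φ c g.1 ∧ QuotientGroup.mk g = k)
    (fun _ _ _ _ ⟨c, g, e1, h1, e3⟩ ⟨d, k, e2, h2, e4⟩ =>
      ⟨c * d, g * k, by rw [map_mul, e1, e2]; rfl, h1.mul h2, by rw [← e3, ← e4]; rfl⟩)
    (fun d => by
      obtain ⟨c, hc⟩ := hsur d
      obtain ⟨g, hg⟩ := exists_pp φ (hfc c z hz (hc ▸ Inv.mem_centralizer_single.1 d.2))
      exact ⟨_, c, ⟨g, o.cent hg (mem_cz.1 c.2)⟩, hc, hg, rfl⟩)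
    (fun k => by
      obtain ⟨g, rfl⟩ := QuotientGroup.mk_surjective k
      obtain ⟨a, h1, h2⟩ := h.lift_conj o (g := g) (by
        simpa using Inv.commute_iff_conj.1 (Inv.mem_centralizer_single.1 g.2))
      exact ⟨⟨_, hcz' ⟨a, mem_cz.2 h2⟩ h1.comm⟩, _, g, rfl, h1, rfl⟩)
    (fun a _ _ ⟨c, g, e1, h1, e3⟩ ⟨d, k, e2, h2, e4⟩ => by
      rw [← e3, ← e4, QuotientGroup.eq, hker (c⁻¹ * d) _ (h1.inv.mul h2), map_mul, map_inv, e1, e2,
        inv_mul_cancel]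
      exact one_mem _)
    (fun a => ⟨fun ⟨c, g, e1, h1, e2⟩ => by
      rw [mem_subgroupOf, ← e1, ← hker c g h1, ← QuotientGroup.eq_one_iff, e2],
      fun ⟨c, h1, e1⟩ => ⟨c, 1, e1, h.pp_Q h1.1, rfl⟩⟩)
  have hconj : ∀ s ∈ Q ⊓ centralizer (zpowers β : Set G), IsConj z s → s ≠ z →
      ∃ y ∈ Q ⊓ centralizer (zpowers β : Set G), ∃ y' ∈ centralizer (zpowers β : Set G),
        y * s * y⁻¹ = s * z ∧ y' * z * y'⁻¹ = s := fun s hs h1 h2 => by
    obtain ⟨k, rfl⟩ := isConj_iff.1 h1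
    obtain ⟨y, hy, y', hy', e1, -, e2⟩ := pr_fix (h.pr hs.1 h2).1 o.oddA hz.2 hs.2
    exact ⟨y, hy, _, mul_mem (mul_mem hy'.2 hy.2) hy'.2, e1, e2⟩
  obtain ⟨y, hy, y', hy', hys, hyz⟩ := hconj s ⟨hs, mem_cz.2 h3⟩ h1 h2
  have hL : LS Q0 (f ⟨z, hz.2⟩) := by
    refine ls_map h.es inf_le_left hz inf_le_right f hsur
      (fun e => h.es.ne (h.Q_A o hz.1 ((hk _).1 e))) (fun c hc => ?_)
      (fun c hc => ⟨c, rfl, le_normalizer_inf (L := zpowers (c : G))
        (zpowers_le.2 (h.ls.mem_normalizer (hfc c z hz hc))) (zpowers_le.2 (le_normalizer c.2))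
        (mem_zpowers _)⟩) ⟨y, hy, s, ⟨hs, mem_cz.2 h3⟩, h.es.not_commute_of_conj hys⟩
    have h1 := hfc c z hz (hc ⟨z, hz.2⟩ hz)
    let θ := e.toMonoidHom.comp (QuotientGroup.mk' _)
    obtain ⟨q, hq, e1⟩ : f c ∈ Q0 := by
      by_contra h2
      obtain ⟨k, ⟨d, hd, rfl⟩, g, e3, -, v, hv, h4⟩ := hbad
        ((centralizer (Q0.subgroupOf (centralizer {f ⟨z, hz.2⟩}) : Set _)).map θ)
        (Normal.map inferInstance θ (e.surjective.comp (QuotientGroup.mk'_surjective _)))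
        fun e1 => h2 ((QuotientGroup.eq_one_iff ⟨f c, hcz' c h1⟩).1 (e.map_eq_one_iff.1
          (mem_bot.1 (e1 ▸ mem_map_of_mem θ fun x ⟨q, hq, e2⟩ => Subtype.ext
            (show x.1 * f c = f c * x.1 from (show f q = x.1 from e2) ▸ (hc q hq).symm)))))
      obtain ⟨a, g', e4, ha, e5⟩ := (he d _).1 rfl
      obtain ⟨x, hx⟩ := h.ex v
      have h5 : x ∈ Q ⊓ centralizer (zpowers β : Set G) := ⟨h.mem hx, mem_cz.2 (h.fix_comm o hv hx)⟩
      have h6 := hfc a x h5 (e4 ▸ (congrArg Subtype.val (hd ⟨_, hcz' ⟨x, h5.2⟩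
        (h.es.central x h5.1).symm⟩ (hQ' _ h5.1))).symm)
      have h7 : Cong (g'.1 • v) v := h.pp_St hx ha h6
      have h8 : ∀ i : ℕ, b ^ i • v = v := fun i => pow_mem (MulAction.mem_stabilizer_iff.2 hv) i
      obtain ⟨i, e6 | e6⟩ := (mem_NB o.odd o.p2).1 (QuotientGroup.eq.1 (e5.trans e3.symm)) <;>
        rw [coe_mul, coe_inv, inv_mul_eq_iff_eq_mul] at e6 <;> refine h4 ?_ <;> rw [e6, mul_smul]
      · rwa [h8]
      · rw [mul_smul, negCo_smul, smul_neg, h8, smul_neg]; exact (cong_neg _).symm.trans h7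
    obtain ⟨y₁, hy₁, e2⟩ | e2 : (∃ y ∈ Q ⊓ centralizer (zpowers β : Set G), y * q * y⁻¹ = q * z) ∨
        (q : G) = 1 ∨ (q : G) = z := by
      by_contra h9
      rw [not_or, not_or] at h9
      exact h9.1 (es_fix h.es (fun a ha => h.ls.mem_normalizer (hz.2 a ha)) o.oddA hq h9.2.1 h9.2.2)
    · exact absurd (hfc q y₁ hy₁ (e1 ▸ hc ⟨y₁, hy₁.2⟩ hy₁)).symm (h.es.not_commute_of_conj e2)
    · rw [← e1]
      exact e2.imp (fun e => by rw [show q = 1 from Subtype.ext e, map_one])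
        fun e => congrArg f (Subtype.ext e)
  have hfj : ∀ a c d : centralizer (zpowers β : Set G), (a : G) * c * (a : G)⁻¹ = d →
      f a * f c * (f a)⁻¹ = f d := fun a c d e => by
    rw [← map_inv, ← map_mul, ← map_mul]; exact congrArg f (Subtype.ext e)
  refine ⟨hz.2, Q0, hQ, hL, hN, setting_of hL ?_ e (fun T h1 h2 => ?_) ⟨f ⟨y', hy'⟩, ?_⟩,
    Eq.symm ?_, e, he⟩
  rotate_left 3
  refine Set.ncard_congr (fun x hx => ⟨f ⟨x, mem_cz.2 hx.2.1⟩, hcz' _ (h.es.central x hx.1).symm⟩)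
    (fun x hx => ⟨hQ' _ hx.1, ?_⟩) (fun x y hx hy e => hinj _ _ hx.1 hy.1 (congrArg Subtype.val e)) ?_
  rotate_left 2
  · rw [← hw, ← h.card_fix o, ← card_subgroupOf (inf_le_right : Q ⊓ _ ≤ _), ← card_map_ker f,
      show (Q ⊓ centralizer (zpowers β : Set G)).subgroupOf _ ⊓ f.ker = ⊥ from eq_bot_iff.2
        fun a ha => Subtype.ext (h.Q_A o ha.1.1 ((hk a).1 ha.2)), card_bot, mul_one]
  · by_contra h4
    obtain ⟨k, h5, h6⟩ := hbad T h1 h4
    exact h6.not_two o.odd o.p2 h2 h5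
  · rw [hfj _ _ ⟨s, mem_cz.2 h3⟩ hyz]
    exact ⟨hQ' _ hs, fun e => h2 (hinj _ _ hs hz.1 e)⟩
  · by_cases e : x = z
    · subst e; exact IsConj.refl _
    · obtain ⟨-, -, y', hy', -, e⟩ := hconj x ⟨hx.1, mem_cz.2 hx.2.1⟩ hx.2.2 e
      exact isConj_iff.2 ⟨_, hfj ⟨y', hy'⟩ _ _ e⟩
  · rintro x ⟨⟨q, hq, e1⟩, h4⟩
    obtain ⟨d, hd⟩ := isConj_iff.1 h4
    obtain ⟨c, rfl⟩ := hsur d
    refine ⟨q, ⟨hq.1, mem_cz.1 q.2, isConj_iff.2 ⟨c, ?_⟩⟩, Subtype.ext e1⟩
    obtain ⟨i, hi⟩ := (hf' _ _).1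
      (((hfj c ⟨z, hz.2⟩ (c * ⟨z, hz.2⟩ * c⁻¹) rfl).symm.trans hd).trans e1.symm)
    have h5 : ((q : G) * β ^ i) ^ 4 = 1 := by
      rw [hi]; change (c * z * (c : G)⁻¹) ^ 4 = 1
      rw [conj_pow, es_pow_four h.es h.es.mem]; simp
    rw [((mem_cz.1 q.2).pow_right i).mul_pow, es_pow_four (x := q) h.es hq.1, one_mul] at h5
    have h6 : orderOf (β ^ i) = 1 := Nat.eq_one_of_dvd_coprimes ((Nat.coprime_two_right.2
      o.oddA).pow_right 2) ((zpowers β).orderOf_dvd_natCard (pow_mem (mem_zpowers β) i))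
      (orderOf_dvd_of_pow_eq_one h5)
    rw [orderOf_eq_one_iff.1 h6, mul_one] at hi
    exact hi.symm

end MT

end Cfsg.Agent.MT
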