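import Cfsg.Agent.Leech.Pass

/-! A count of minimal vectors for a permutation of shape `1^4 5^4`. -/

set_option autoImplicit false

namespace Cfsg.Agent.MT.P5
open Cfsg Cfsg.Agent.Leech
open Cfsg.Agent.Golay (mapL sumBig force)

/-- the permutation -/
def c : ℕ := 5479283806539731123913734100659251
/-- its matrix -/
noncomputable def X : ℕ := monoC c 0
/-- the test -/
noncomputable def f : ℕ → ℕ := cand (mapL prep (pows X 2)) [] 0x62108421084210842108421084210c

theorem p1 : sumBig (fun k => force (tM k) f) 49140 = 800 := by decide +kernel
theorem p2 : sumBig (fun k => force (tM (Nat.add 49140 k)) f) 49140 = 920 := by decide +kernel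
theorem p3 : sumBig (fun k => force (tM (Nat.add 98280 k)) f) 49140 = 640 := by decide +kernel
theorem p4 : sumBig (fun k => force (tM (Nat.add 147420 k)) f) 49140 = 640 := by decide +kernel

theorem pass : passS f = 3000 := passS_four p1 p2 p3 p4

end Cfsg.Agent.MT.P5
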