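import Cfsg.Agent.MT.Kit
import Cfsg.Agent.Golay.Classes

/-! Elements of odd order centralizing a standard four-group. -/

set_option autoImplicit false
set_option linter.unusedSectionVars false
set_option linter.dupNamespace false

namespace Cfsg.Agent.MT

open Cfsg Subgroup LocalEven Fischer PLocal Leech

theorem conj_into {Γ : Type*} [Group Γ] {N H P : Subgroup Γ} [Finite N] (hH : H ≤ N) (hP : P ≤ N)
    {m p : ℕ} (hp : p.Prime) (hm : Nat.card N = m * Nat.card H) (hpm : ¬ p ∣ m) (h : IsPGroup p P) :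
    ∃ g ∈ N, ∀ x ∈ P, g * x * g⁻¹ ∈ H := by
  have := Fact.mk hp
  have h3 := card_eq_card_quotient_mul_card_subgroup (H.subgroupOf N)
  rw [hm, ← Nat.card_congr (subgroupOfEquivOfLe hH).toEquiv] at h3
  obtain ⟨q, hq⟩ := (h.comap_subtype (K := N)).nonempty_fixed_point_of_prime_not_dvd_card
    (N ⧸ H.subgroupOf N) (Nat.eq_of_mul_eq_mul_right Nat.card_pos h3 ▸ hpm)
  obtain ⟨g, rfl⟩ := QuotientGroup.mk_surjective q
  exact ⟨(g : Γ)⁻¹, N.inv_mem g.2, fun x hx => by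
    have := QuotientGroup.eq.1 (hq ⟨⟨x, hP hx⟩, hx⟩).symm
    rw [inv_inv, mul_assoc]; exact this⟩

variable {G : Type*} [Group G] [Finite G] {Q : Subgroup G} {z s β : G}

theorem mem_c2 {a : G} : a ∈ centralizer ({z, s} : Set G) ↔ Commute a z ∧ Commute a s := by
  simp only [mem_centralizer_iff, Set.mem_insert_iff, Set.mem_singleton_iff, forall_eq_or_imp,
    forall_eq]
  exact and_congr eq_comm eq_comm

/-- The standard situation. -/
structure SD (z s β : G) (Q : Subgroup G) (R : leechLattice → G → Prop)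
    (φ : centralizer ({z} : Set G) →* Spor.Co1) (b : Co0) (p : ℕ) : Prop where
  mt : MT z Q R φ
  hs : R (e8 none) s
  od : OD φ β b p
  cs : Commute s β

variable {R : leechLattice → G → Prop} {φ : centralizer ({z} : Set G) →* Spor.Co1} {b g : Co0}
  {p : ℕ}

theorem MT.card_L (h : MT z Q R φ) (hs : R (e8 none) s) :
    Nat.card (centralizer ({z, s} : Set G)) = 2 ^ 35 * 244823040 := by
  obtain ⟨h1, h2⟩ := h.ne64 hs (e8_norm _)
  have h3 := h.card_img (H := centralizer {z} ⊓ centralizer {s}) inf_le_left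
  have h4 := es_card_cent h.es (h.mem hs) h1 h2
  rw [h.img_cent hs h1 h2, St_e8, card_Nm, inf_right_comm, inf_of_le_right (ls_le h.ls)] at h3
  rw [show centralizer ({z, s} : Set G) = centralizer {z} ⊓ centralizer {s} from by
    ext a; simp only [mem_c2, mem_inf, Inv.mem_centralizer_single]]
  rw [h.card] at h4
  rw [show Nat.card (Q ⊓ centralizer {s} : Subgroup G) = 2 ^ 24 by omega] at h3
  omega

namespace SD
variable (h : SD z s β Q R φ b p)
include h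

theorem nm : b ∈ Nm := St_e8 ▸ h.mt.pp_St h.hs h.od.pp h.cs.symm

theorem conj (hg : g ∈ Nm) : ∃ R φ, SD z s β Q R φ (g * b * g⁻¹) p :=
  ⟨_, _, h.mt.twist g⁻¹, h.mt.cong h.hs (Cong.symm (show g⁻¹ ∈ St _ from St_e8 ▸ inv_mem hg)),
    ⟨h.od.pp.imp fun _ e => by simp [e], h.od.odd, h.od.o1, by
      rw [← h.od.o2]; exact (MulAut.conj g).orderOf_eq b⟩, h.cs⟩

theorem pow {k : ℕ} (hk : p.Coprime k) : SD z s (β ^ k) Q R φ (b ^ k) p :=
  ⟨h.mt, h.hs, ⟨h.od.pp.pow k, h.od.odd,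
    (Nat.Coprime.orderOf_pow (by rwa [h.od.o1])).trans h.od.o1,
    (Nat.Coprime.orderOf_pow (by rwa [h.od.o2])).trans h.od.o2⟩, h.cs.pow_right k⟩

theorem ne : s ≠ 1 ∧ s ≠ z := h.mt.ne64 h.hs (e8_norm _)

theorem isConj : IsConj z s := h.mt.isConj64 h.hs (e8_norm _)

theorem lift (hg : g ∈ Nm) (e : Commute g b) : ∃ a, PP φ a g ∧ Commute a β ∧ Commute a s := by
  obtain ⟨a, ha, hc⟩ := h.mt.lift_conj h.od ((Inv.commute_iff_conj.1 e).trans (pow_one b).symm)
  rcases (h.mt.iff (h.mt.act' ha h.hs) h.hs).1 (show g ∈ St _ from St_e8 ▸ hg) with e | e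
  · exact ⟨a, ha, hc, Inv.commute_iff_conj.2 e.symm⟩
  · obtain ⟨k, rfl⟩ := isConj_iff.1 h.isConj
    obtain ⟨q, hq, -, -, hq', -⟩ := pr_fix (h.mt.pr (h.mt.mem h.hs) h.ne.2).1 h.od.oddA
      (mem_cz.2 h.od.pp.comm.symm) (mem_cz.2 h.cs)
    refine ⟨a * q, by simpa using ha.mul (h.mt.pp_Q hq.1), hc.mul_left (mem_cz.1 hq.2),
      Inv.commute_iff_conj.2 ?_⟩
    generalize k * z * k⁻¹ = s at *
    rw [show a * q * s * (a * q)⁻¹ = a * (q * s * q⁻¹) * a⁻¹ by group, hq', ← mul_assoc,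
      mul_assoc (a * s), ← ha.comm.inv_left.eq, ← mul_assoc, ← e]

theorem dvd_iff : 27 ∣ Nat.card (centralizer ({z, s} : Set G) ⊓ centralizer {β} : Subgroup G) ↔
    27 ∣ Nat.card (Nm ⊓ centralizer {b} : Subgroup Co0) := by
  have h1 := h.mt.card_img (H := centralizer {z, s} ⊓ centralizer {β})
    fun a ha => Inv.mem_centralizer_single.2 (mem_c2.1 ha.1).1
  rw [show img φ (centralizer {z, s} ⊓ centralizer {β}) = Nm ⊓ centralizer {b} from by
    ext g
    rw [mem_img]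
    exact ⟨fun ⟨a, h2, ha⟩ => ⟨St_e8 ▸ h.mt.pp_St h.hs ha (mem_c2.1 h2.1).2,
      h.od.cent ha (Inv.mem_centralizer_single.1 h2.2)⟩, fun hg =>
      (h.lift hg.1 (Inv.mem_centralizer_single.1 hg.2)).imp fun a ha =>
        ⟨⟨mem_c2.2 ⟨ha.1.comm, ha.2.2⟩, Inv.mem_centralizer_single.2 ha.2.1⟩, ha.1⟩⟩] at h1
  obtain ⟨n, -, hn⟩ := (Nat.dvd_prime_pow Nat.prime_two).1 (h.mt.card ▸ card_dvd_of_le
    (inf_le_right : (centralizer {z, s} ⊓ centralizer {β}) ⊓ Q ≤ Q))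
  rw [hn] at h1
  rw [← (show Nat.Coprime 27 2 by norm_num).dvd_mul_left, ← h1,
    ((show Nat.Coprime 27 2 by norm_num).pow_right n).dvd_mul_right]

end SD

theorem exists_sd {Q : Subgroup (centralizer ({z} : Set G))} [Q.Normal] (hM : IsOfMonsterType z Q)
    (hsQ : ∃ hs : s ∈ centralizer ({z} : Set G), (⟨s, hs⟩ : centralizer ({z} : Set G)) ∈ Q)
    (hs : IsConj z s) (hs1 : s ≠ z) : ∃ Q R φ, MT z Q R φ ∧ R (e8 none) s :=
  let ⟨_, _, h⟩ := exists_mt hM
  ⟨_, h.std (mem_of_ex hsQ) hs hs1⟩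

theorem MT.sd (h : MT z Q R φ) (hs : R (e8 none) s) {B : Subgroup G}
    (hB : B ≤ centralizer {z, s}) (hp : p.Prime) (ho : Odd p) (hc : Nat.card B = p) :
    ∃ β b, B = zpowers β ∧ SD z s β Q R φ b p := by
  obtain ⟨β, h1, rfl⟩ := Golay.exists_zpowers_of_card hp hc
  obtain ⟨h2, h3⟩ := mem_c2.1 (hB (mem_zpowers β))
  obtain ⟨b, o⟩ := h.exists_od h2 hp ho h1
  exact ⟨β, b, rfl, h, hs, o, h3.symm⟩

theorem permHom_inj : Function.Injective permHom :=
  (injective_iff_map_eq_one _).2 fun _ e => perm_mem_Sg (e ▸ one_mem _)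

theorem MT.sd_prime (h : MT z Q R φ) (hs : R (e8 none) s) {B : Subgroup G}
    (hB : B ≤ centralizer {z, s}) (hp : p = 5 ∨ p = 7)
    (hc : Nat.card B = p ^ (Nat.card (centralizer ({z, s} : Set G))).factorization p) {σ : M24}
    (hσ : orderOf σ = p) : ∃ β R φ, B = zpowers β ∧ SD z s β Q R φ (permHom σ) p := by
  have h1 : p.Prime := by rcases hp with rfl | rfl <;> norm_num
  have h2 : (2 ^ 35 * 244823040).factorization p = 1 := by
    have h3 := h1.pow_dvd_iff_le_factorization (k := 1) (n := 2 ^ 35 * 244823040) (by norm_num)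
    have h4 := h1.pow_dvd_iff_le_factorization (k := 2) (n := 2 ^ 35 * 244823040) (by norm_num)
    rcases hp with rfl | rfl <;> norm_num at h3 h4 ⊢ <;> omega
  rw [h.card_L hs, h2, pow_one] at hc
  obtain ⟨β, b, rfl, h3⟩ := h.sd hs hB h1 (by rcases hp with rfl | rfl <;> decide) hc
  have h4 : orderOf (permHom σ) = p := (orderOf_injective _ permHom_inj σ).trans hσ
  obtain ⟨g, hg, e⟩ := Golay.exists_conj_mem (zpowers_le.2 h3.nm) (m := 4096 * 244823040 / p) h1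
    (by rw [card_Nm, Nat.card_zpowers, h3.od.o2]; rcases hp with rfl | rfl <;> norm_num)
    (by rcases hp with rfl | rfl <;> norm_num) (x := permHom σ) (permCo_mem σ) (k := 1)
    (by rw [pow_one, ← h4]; exact pow_orderOf_eq_one _)
  obtain ⟨k, hk⟩ := mem_powers_iff_mem_zpowers.2 e
  have h5 : p.Coprime k := (Nat.coprime_or_dvd_of_prime h1 k).resolve_right fun e => by
    rw [← h3.od.o2, orderOf_dvd_iff_pow_eq_one, show b ^ k = _ from hk, conj_eq_one_iff] at e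
    exact h1.one_lt.ne' (h4.symm.trans (orderOf_eq_one_iff.2 e))
  obtain ⟨R, φ, h6⟩ := (h3.pow h5).conj (inv_mem hg)
  refine ⟨_, R, φ, ?_, by simpa [show b ^ k = _ from hk, mul_assoc] using h6⟩
  exact (eq_of_le_of_card_ge (zpowers_le.2 (npow_mem_zpowers β k)) (by
    rw [Nat.card_zpowers, Nat.card_zpowers, h6.od.o1, h3.od.o1])).symm

theorem MT.sd_three (h : MT z Q R φ) (hs : R (e8 none) s) {B : Subgroup G}
    (hB : B ≤ centralizer {z, s}) (hc : Nat.card B = 3) {σ τ : M24} (h1 : orderOf σ = 3)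
    (h2 : orderOf τ = 3) (h3 : (Golay.Fx σ.1).Nonempty) (h4 : Golay.Fx τ.1 = ∅) :
    ∃ β R φ, B = zpowers β ∧
      (SD z s β Q R φ (permHom σ) 3 ∨ SD z s β Q R φ (permHom τ) 3) := by
  obtain ⟨β, b, rfl, h5⟩ := h.sd hs hB Nat.prime_three (by decide) hc
  obtain ⟨g, hg, x, e⟩ := Golay.exists_conj_mem (G := Nm) (H := permHom.range)
    (fun _ ⟨x, e⟩ => e ▸ permCo_mem x) (m := 4096) Nat.prime_three (by
      rw [card_Nm, ← Golay.card_M24]
      exact congrArg _ (Nat.card_congr (MonoidHom.ofInjective permHom_inj).toEquiv))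
    (by norm_num) h5.nm (k := 1) h5.od.p2
  obtain ⟨R, φ, h6⟩ := h5.conj hg
  rw [← e] at h6
  have h7 : orderOf x.1 = 3 := (orderOf_coe x).trans
    ((orderOf_injective _ permHom_inj x).symm.trans h6.od.o2)
  have key : ∀ (ρ : M24) c, (∃ g ∈ M24, g * c * g⁻¹ = x.1) → (∃ g ∈ M24, g * c * g⁻¹ = ρ.1) →
      ∃ R φ, SD z s β Q R φ (permHom ρ) 3 := fun ρ c ⟨u, hu, e1⟩ ⟨v, hv, e2⟩ => by
    have := h6.conj (permCo_mem (⟨v, hv⟩ * ⟨u, hu⟩⁻¹))
    rwa [show permCo _ = permHom _ from rfl, ← map_inv, ← map_mul, ← map_mul,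
      show (⟨v, hv⟩ * ⟨u, hu⟩⁻¹ : M24) * x * _ = ρ from Subtype.ext (by
        simp [← e1, ← e2, mul_assoc])] at this
  rcases Golay.three_M24 x.2 h7 with e | e
  · obtain ⟨R, φ, h8⟩ := key σ _ e (Golay.conj_3A σ.2 ((orderOf_coe σ).trans h1) h3)
    exact ⟨β, R, φ, rfl, Or.inl h8⟩
  · obtain ⟨R, φ, h8⟩ := key τ _ e (Golay.conj_3B τ.2 ((orderOf_coe τ).trans h2) h4)
    exact ⟨β, R, φ, rfl, Or.inr h8⟩

end Cfsg.Agent.MT
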