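import Cfsg.Agent.MT.Std
import Cfsg.Agent.Golay.Fus

/-! Permutations given by codes, and the two classes of elements of order three. -/

set_option autoImplicit false
set_option linter.unusedSectionVars false
set_option linter.dupNamespace false

namespace Cfsg.Agent.MT

open Cfsg Subgroup Leech
open Golay (m24Err tp pc gE get pw Cl)

/-- The element of `M24` with a given code. -/
noncomputable def pm (c : ℕ) (h : m24Err c = 0) : M24 := ⟨tp c, Golay.tp_mem_of_m24Err h⟩

theorem pc_pm {c : ℕ} (h : m24Err c = 0) : pc (pm c h).1 = c := Golay.pc_tp_of_m24Err h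

theorem ord_pm {c p : ℕ} (h : m24Err c = 0) (hp : p.Prime) (e : Golay.ordErr p c = 0) :
    orderOf (pm c h) = p ∧ orderOf (permHom (pm c h)) = p := by
  have := (orderOf_coe (pm c h)).symm.trans ((Golay.ordErr_pc hp _).1 ((pc_pm h).symm ▸ e))
  exact ⟨this, (orderOf_injective _ permHom_inj _).trans this⟩

theorem finrank_pm {c : ℕ} (h : m24Err c = 0) (n m : ℕ) (om rh : List ℕ)
    (H : (∀ i < 24, om.getD i 0 < n ∧ om.getD (get 5 c i) 0 = om.getD i 0 ∧
      ∃ k < m, get 5 (pw c k) (rh.getD (om.getD i 0) 0) = i) ∧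
      ∀ j < n, rh.getD j 0 < 24 ∧ om.getD (rh.getD j 0) 0 = j) :
    Module.finrank ℤ (Fix (permHom (pm c h))) = n := by
  refine finrank_fix _ (fun i => ⟨om.getD (gE.enc i) 0, (H.1 _ (gE.enc_lt i)).1⟩)
    (fun j => gE.dec (rh.getD j 0)) (fun j => Fin.ext ?_) (fun i => Fin.ext ?_) m fun i => ?_
  · simp only [gE.enc_dec _ (H.2 j j.2).1, (H.2 j j.2).2]
  · simp only [← Golay.get_pc, pc_pm, (H.1 _ (gE.enc_lt i)).2.1]
  · obtain ⟨h1, -, k, hk, e⟩ := H.1 _ (gE.enc_lt i)
    exact ⟨k, hk, gE.enc_injective (by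
      rw [← Golay.get_pc, ← Golay.pw_pc, pc_pm, gE.enc_dec _ (H.2 _ h1).1, e])⟩

/-- generators of a Sylow subgroup -/
def syl3 : List ℕ := [940362239259389591421114846691899496, 358841116317272546764100562230924293]

theorem gen_syl3 : Golay.Gen pc (Cl syl3) syl3 := Golay.gen_Cl (by decide +kernel)

/-- A Sylow `3`-subgroup of the monomial group. -/
noncomputable def S3 : Subgroup Co0 := ((Cl syl3).subgroupOf M24).map permHom

theorem card_S3 : Nat.card S3 = 27 := by
  rw [S3, card_map_of_injective permHom_inj, Nat.card_congr (subgroupOfEquivOfLe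
    (Golay.Cl_le (Golay.in_M24 (by decide +kernel)))).toEquiv]
  exact Golay.card_of_bfs gen_syl3 28 (by decide +kernel)

theorem S3_le : S3 ≤ Nm := fun _ ⟨σ, _, e⟩ => e ▸ permCo_mem σ

theorem dvd_3A {σ : M24} (h : pc σ.1 = 11138893543502987685446793936221827) :
    27 ∣ Nat.card (Nm ⊓ centralizer {permHom σ} : Subgroup Co0) := by
  refine card_S3 ▸ card_dvd_of_le (le_inf S3_le ?_)
  rintro - ⟨τ, hτ, rfl⟩
  have := Golay.forall_mem_of_bfs gen_syl3 28 (fun c => Nat.xor (Golay.mul c (pc σ.1))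
    (Golay.mul (pc σ.1) c)) (by rw [h]; decide +kernel) τ hτ
  rw [Golay.xor_eq_zero_iff', Golay.mul_pc, Golay.mul_pc, Golay.pc_inj] at this
  exact Inv.mem_centralizer_single.2 (Commute.map (Subtype.ext this : τ * σ = σ * τ) permHom)

theorem not_dvd_3B {σ : M24} (ho : orderOf (permHom σ) = 3) (h : Golay.Fx σ.1 = ∅) :
    ¬ 27 ∣ Nat.card (Nm ⊓ centralizer {permHom σ} : Subgroup Co0) := fun hd => by
  have := Fact.mk Nat.prime_three
  obtain ⟨P, hP⟩ := Sylow.exists_subgroup_card_pow_prime 3 (n := 3) hd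
  set A := P.map (Subgroup.subtype _)
  have hA : A ≤ _ := map_subtype_le P
  have hc : Nat.card A = 27 := (card_map_of_injective (subtype_injective _)).trans hP
  have h1 : IsPGroup 3 (A ⊔ zpowers (permHom σ) : Subgroup Co0) :=
    (IsPGroup.of_card (n := 3) hc).to_sup_of_normal_right'
      (IsPGroup.of_card (n := 1) (by rw [Nat.card_zpowers, ho, pow_one])) fun a ha =>
        centralizer_le_normalizer _ (mem_cz.2 (Inv.mem_centralizer_single.1 (hA ha).2))
  obtain ⟨g, hg, e⟩ := conj_into S3_le (sup_le (hA.trans inf_le_left) (zpowers_le.2 (permCo_mem σ)))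
    (m := 4096 * 9067520) Nat.prime_three (by rw [card_Nm, card_S3]) (by norm_num) h1
  have h2 : A.map (MulAut.conj g).toMonoidHom = S3 := eq_of_le_of_card_ge
    (fun _ ⟨a, ha, e'⟩ => e' ▸ e a (mem_sup_left ha))
    (by rw [card_S3, card_map_of_injective (MulAut.conj g).injective, hc])
  obtain ⟨τ, hτ, e1⟩ := e (permHom σ) (mem_sup_right (mem_zpowers _))
  have h3 := Golay.forall_mem_of_bfs gen_syl3 28 (fun c => Golay.allZ (fun s =>
    Nat.xor (Golay.mul s c) (Golay.mul c s)) (Nat.xor (get 5 c 4) 4) syl3) (by decide +kernel) τ hτ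
  rw [Golay.allZ_eq, Golay.xor_eq_zero_iff'] at h3
  · have h4 : τ.1 (some 4) = some 4 := gE.enc_injective ((Golay.get_pc τ.1 (some 4)).symm.trans h3)
    have h5 : permHom σ • g⁻¹ • e8 (some 4) = g⁻¹ • e8 (some 4) := by
      rw [eq_inv_smul_iff, ← mul_smul, ← mul_smul, ← e1]; exact (permCo_e8 τ _).trans (by rw [h4])
    obtain ⟨j, e2 | e2⟩ := Nm_e8 (inv_mem hg) (some 4) <;> rw [e2] at h5
    · exact Golay.Fx_eq_empty.1 h j (e8_injective ((permCo_e8 σ j).symm.trans h5))
    · exact Golay.Fx_eq_empty.1 h j (e8_injective ((permCo_e8 σ j).symm.trans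
        (neg_injective ((smul_neg _ _).symm.trans h5))))
  · intro c hc'
    obtain ⟨s, hs, rfl⟩ := gen_syl3.1 c hc'
    have hs' := Golay.Cl_le (Golay.in_M24 (by decide +kernel)) hs
    obtain ⟨a, ha, e2⟩ : permHom ⟨s, hs'⟩ ∈ A.map (MulAut.conj g).toMonoidHom := h2 ▸ ⟨_, hs, rfl⟩
    rw [Golay.xor_eq_zero_iff', Golay.mul_pc, Golay.mul_pc, Golay.pc_inj]
    refine congrArg Subtype.val (permHom_inj (?_ : permHom (⟨s, hs'⟩ * τ) = permHom (τ * ⟨s, hs'⟩)))
    rw [map_mul, map_mul, ← e2, e1]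
    exact ((Inv.mem_centralizer_single.1 (hA ha).2).map (MulAut.conj g)).eq

theorem cent_iff {G : Type*} [Group G] [Finite G] {L : Subgroup G} {β : G} (hβ : β ∈ L)
    (ho : orderOf β = 3) (hL : Nat.card L = 2 ^ 35 * 244823040) :
    (∃ P : Sylow 3 L, (zpowers β).subgroupOf L ≤ (center P).map (P : Subgroup L).subtype) ↔
      27 ∣ Nat.card (L ⊓ centralizer {β} : Subgroup G) := by
  have := Fact.mk Nat.prime_three
  have h1 : ∀ P : Sylow 3 L, Nat.card P = 27 := fun P => by
    have h3 := Nat.prime_three.pow_dvd_iff_le_factorization (k := 3) (n := Nat.card L) (by simp [hL])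
    have h4 := Nat.prime_three.pow_dvd_iff_le_factorization (k := 4) (n := Nat.card L) (by simp [hL])
    rw [P.card_eq_multiplicity, show (Nat.card L).factorization 3 = 3 by
      rw [hL] at h3 h4 ⊢; norm_num at h3 h4 ⊢; omega]; rfl
  rw [← Nat.card_congr (subgroupOfEquivOfLe (inf_le_left : L ⊓ centralizer {β} ≤ L)).toEquiv]
  refine ⟨fun ⟨P, hP⟩ => h1 P ▸ card_dvd_of_le fun a ha => ?_, fun hd => ?_⟩
  · obtain ⟨c, hc, e⟩ := hP (show ⟨β, hβ⟩ ∈ _ from mem_zpowers β)
    refine ⟨a.2, Inv.mem_centralizer_single.2 ?_⟩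
    have := congrArg (fun x : P => ((x : L) : G)) (Subgroup.mem_center_iff.1 hc ⟨a, ha⟩)
    rw [show β = ((c : L) : G) from congrArg Subtype.val e.symm]; exact this
  · obtain ⟨A, hA⟩ := Sylow.exists_subgroup_card_pow_prime 3 (n := 3) hd
    have hc : ∀ a ∈ A.map (Subgroup.subtype _), Commute a ⟨β, hβ⟩ := fun a ha =>
      Subtype.ext (Inv.mem_centralizer_single.1 (map_subtype_le A ha).2)
    obtain ⟨P, hP⟩ := (((IsPGroup.of_card hA).map (Subgroup.subtype _)).to_sup_of_normal_right'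
      (IsPGroup.of_card (n := 1) (by rw [Nat.card_zpowers, ← orderOf_coe, ho, pow_one]) :
        IsPGroup 3 (zpowers (⟨β, hβ⟩ : L))) fun a ha =>
          centralizer_le_normalizer _ (mem_cz.2 (hc a ha))).exists_le_sylow
    have h2 : A.map (Subgroup.subtype _) = P := eq_of_le_of_card_ge (le_sup_left.trans hP)
      (by rw [h1, card_map_of_injective (subtype_injective _), hA]; rfl)
    refine ⟨P, fun x hx => ?_⟩
    have hx' : x ∈ zpowers (⟨β, hβ⟩ : L) := by
      obtain ⟨k, hk⟩ := hx; exact ⟨k, Subtype.ext hk⟩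
    exact ⟨⟨x, hP (mem_sup_right hx')⟩, Subgroup.mem_center_iff.2 fun a => Subtype.ext
      (Inv.commute_of_mem_zpowers (hc a (h2.ge a.2)).symm hx').symm.eq, rfl⟩

end Cfsg.Agent.MT
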