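import Mathlib
import Cfsg.Prelude.Def_MonsterType

/-! Recognition of the wreath product of `A₅` by a group of order two. -/

set_option autoImplicit false

namespace Cfsg.Agent.MT.Wr
open Cfsg Subgroup SemidirectProduct

variable {K : Type*} [Group K]

/-- The alternating group of degree five. -/
abbrev A : Type := alternatingGroup (Fin 5)

/-- The homomorphism given by an involution. -/
def inv2 (t : K) (ht : t * t = 1) : ℤˣ →* K :=
  MonoidHom.mk' (fun u => if u = 1 then 1 else t) fun a b => by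
    rcases Int.units_eq_one_or a with rfl | rfl <;> rcases Int.units_eq_one_or b with rfl | rfl <;>
      simp [ht]

/-- The abstract wreath product. -/
abbrev P : Type := (A × A) ⋊[inv2 (MulEquiv.prodComm : MulAut (A × A)) rfl] ℤˣ

theorem card_P : Nat.card P = 7200 := by
  rw [SemidirectProduct.card, Nat.card_prod, nat_card_alternatingGroup]; simp [Nat.factorial]

variable (ψ : A →* K) {t : K} (ht : t * t = 1) (hc : ∀ a b, Commute (ψ a) (t * ψ b * t⁻¹))
include ht hc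

theorem nrm {N : Subgroup K} (hN : N.Normal) {a b : A} {u : ℤˣ}
    (h : ψ a * (t * ψ b * t⁻¹) * inv2 t ht u ∈ N) : (a = 1 ∧ b = 1 ∧ u = 1) ∨ ∀ c, ψ c ∈ N := by
  have hs := alternatingGroup.isSimpleGroup (α := Fin 5) (by simp)
  have h0 : ∀ a ≠ 1, ψ a ∈ N → ∀ c, ψ c ∈ N := fun a ha h c =>
    ((hN.comap ψ).eq_bot_or_eq_top.resolve_left fun e => ha (mem_bot.1 (e ▸ h))).ge (mem_top c)
  have h1 : ∀ a ≠ 1, ∀ b, ψ a * (t * ψ b * t⁻¹) ∈ N → ∀ c, ψ c ∈ N := fun a ha b h => by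
    obtain ⟨c, e⟩ : ∃ c, c * a ≠ a * c := not_forall.1 fun e => ha (mem_bot.1
      (alternatingGroup.center_eq_bot (α := Fin 5) (by simp) ▸ mem_center_iff.2 e))
    refine h0 (c * a * c⁻¹ * a⁻¹) (by rwa [Ne, mul_inv_eq_one, mul_inv_eq_iff_eq_mul]) ?_
    convert mul_mem (hN.conj_mem _ h (ψ c)) (inv_mem h) using 1
    rw [mul_assoc (ψ c) _ (ψ c)⁻¹, mul_assoc (ψ a), ← (hc c b).inv_left.eq]
    simp [mul_assoc]
  rcases Int.units_eq_one_or u with rfl | rfl
  · rw [map_one, mul_one] at h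
    by_cases ha : a = 1
    · by_cases hb : b = 1
      · exact Or.inl ⟨ha, hb, rfl⟩
      · exact Or.inr (h0 b hb (by simpa [ha, mul_assoc] using hN.conj_mem _ h t⁻¹))
    · exact Or.inr (h1 a ha b h)
  · obtain ⟨c, e⟩ := exists_ne (1 : A)
    refine Or.inr (h1 c e (b * c⁻¹ * b⁻¹) ?_)
    convert mul_mem (hN.conj_mem _ h (ψ c)) (inv_mem h) using 1
    rw [show inv2 t ht (-1) = t from rfl, ← (hc a (b * c⁻¹ * b⁻¹)).mul_inv_cancel]
    simp [mul_assoc]

/-- The homomorphism from the abstract wreath product. -/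
noncomputable def F : P →* K :=
  SemidirectProduct.lift (ψ.noncommCoprod ((MulAut.conj t).toMonoidHom.comp ψ) hc) (inv2 t ht)
    fun u => by
      rcases Int.units_eq_one_or u with rfl | rfl
      · ext <;> simp
      · have ht' : t⁻¹ = t := inv_eq_of_mul_eq_one_left ht
        ext x
        simpa [inv2, mul_assoc, ht', ht] using (hc x.2 x.1).eq

theorem F_apply (p : P) :
    F ψ ht hc p = ψ p.left.1 * (t * ψ p.left.2 * t⁻¹) * inv2 t ht p.right := rfl

theorem F_inj {x : A} (hx : ψ x ≠ 1) : Function.Injective (F ψ ht hc) :=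
  (injective_iff_map_eq_one _).2 fun _ hp =>
    have := (nrm ψ ht hc normal_bot (mem_bot.2 hp)).resolve_right fun e => hx (e x)
    SemidirectProduct.ext (Prod.ext this.1 this.2.1) this.2.2

theorem iso [Finite K] {x : A} (hx : ψ x ≠ 1) (hK : Nat.card K ≤ 7200) :
    Nonempty (K ≃* alternatingFiveWreathTwo) ∧
      ∀ N : Subgroup K, N.Normal → N ≠ ⊥ → ∀ a, ψ a ∈ N := by
  have h1 := (F_inj ψ ht hc hx).bijective_of_nat_card_le (card_P ▸ hK)
  let ψ₀ : A →* Equiv.Perm (Fin 5 ⊕ Fin 5) :=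
    ((Equiv.Perm.sumCongrHom _ _).comp (MonoidHom.inl _ _)).comp (Subgroup.subtype _)
  let t₀ : Equiv.Perm (Fin 5 ⊕ Fin 5) := Equiv.sumComm _ _
  have h2 : t₀ * t₀ = 1 := by ext (i | i) <;> rfl
  have h3 : ∀ a b : A, ψ₀ a * (t₀ * ψ₀ b * t₀⁻¹) = Equiv.Perm.sumCongr a.1 b.1 := fun a b => by
    ext (i | i) <;> rfl
  have h4 : ∀ a b, Commute (ψ₀ a) (t₀ * ψ₀ b * t₀⁻¹) := fun a b => by ext (i | i) <;> rfl
  obtain ⟨c, e⟩ := exists_ne (1 : A)
  have h5 := F_inj ψ₀ h2 h4 (x := c) fun e' => e (Subtype.ext (Equiv.ext fun i =>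
    Sum.inl.inj (Equiv.congr_fun e' (Sum.inl i))))
  have h6 : (F ψ₀ h2 h4).range = alternatingFiveWreathTwo := by
    refine le_antisymm ?_ ((closure_le _).2 ?_)
    · rintro - ⟨p, rfl⟩
      rw [F_apply, h3]
      refine mul_mem (subset_closure (Or.inl ⟨_, _, rfl⟩)) ?_
      rcases Int.units_eq_one_or p.right with e | e <;> rw [e]
      exacts [one_mem _, subset_closure (Or.inr rfl)]
    · rintro - (⟨a, b, rfl⟩ | rfl)
      · exact ⟨inl (a, b), (F_apply ..).trans (by simp [h3])⟩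
      · exact ⟨inr (-1), SemidirectProduct.lift_inr ..⟩
  refine ⟨⟨(MulEquiv.ofBijective _ h1).symm.trans ((MonoidHom.ofInjective h5).trans
    (MulEquiv.subgroupCongr h6))⟩, fun N hN h => ?_⟩
  obtain ⟨⟨y, hy⟩, h7⟩ := ne_bot_iff_exists_ne_one.1 h
  obtain ⟨p, rfl⟩ := h1.2 y
  exact (nrm ψ ht hc hN hy).resolve_left fun e => h7 (Subtype.ext (by simp [F_apply, e]))

end Cfsg.Agent.MT.Wr
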